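import Cfsg.Agent.Suzuki2S.Elementary

/-!
# Suzuki 2-groups: squares and commutators are central (Higman)
-/

set_option autoImplicit false
set_option linter.unusedSectionVars false

namespace Cfsg.Agent.Suzuki2S

variable {P : Type*} [Group P] {Y : Subgroup (MulAut P)}

theorem zmod_two_eq_one : ∀ a : ZMod 2, a ≠ 0 → a = 1 := by decide

variable (hd : Data Y)
include hd

/-- In a maximal good subgroup with an element of order four, the fourth powers are trivial. -/
theorem exponent_four {A : Subgroup P} (hA : Good (Y := Y) A)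
    (hmax : ∀ B : Subgroup P, Good (Y := Y) B → A ≤ B → B ≤ A) :
    ∀ a ∈ A, a * a * (a * a) = 1 := by
  intro a ha
  by_cases h4 : ∃ a ∈ A, a * a ≠ 1
  · obtain ⟨e, he2, he, he'⟩ := exists_exponent hd h4
    by_cases he3 : 3 ≤ e
    · exact (no_eight hd hA hmax he3 he he').elim
    · have : e = 2 := by omega
      subst this
      have := he a ha
      simpa [pow_succ, mul_assoc] using this
  · simp only [not_exists, not_and, not_not] at h4
    rw [h4 a ha, one_mul]

/-- Squares and commutators of a Suzuki 2-group are central. -/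
theorem sq_comm_central :
    (∀ x : P, x * x ∈ Subgroup.center P) ∧
      ∀ x p : P, x⁻¹ * p⁻¹ * x * p ∈ Subgroup.center P := by
  haveI := hd.finite
  classical
  have hcZ := center_good hd
  set M := stepSubgroup hcZ (⊤ : Subgroup P) with hM
  have hMσ : ∀ g ∈ Y, ∀ y ∈ M, g y ∈ M := fun g hg y hy =>
    stepSubgroup_inv hd hcZ (fun _ _ x _ => Subgroup.mem_top _) hg hy
  have hMn : ∀ p : P, ∀ y ∈ M, p⁻¹ * y * p ∈ M := by
    intro p y hy
    have h := M.mul_mem hy (le_stepSubgroup hd hcZ le_top (hy.2.2 p))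
    convert h using 1
    group
  by_cases hcase : ∀ a ∈ M, (∀ m ∈ M, a * m = m * a) → a ∈ Subgroup.center P
  · set C := Subgroup.centralizer (M : Set P) with hC
    have hCn : C.Normal := ⟨fun x hx p => Subgroup.mem_centralizer_iff.2 fun m hm => by
      have h := Subgroup.mem_centralizer_iff.1 hx _ (hMn p m hm)
      calc m * (p * x * p⁻¹) = p * ((p⁻¹ * m * p) * x) * p⁻¹ := by group
        _ = _ := by rw [h]; group⟩
    have hCM : ∀ x ∈ C, x ∈ Subgroup.center P := by
      intro x hx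
      by_contra hxZ
      obtain ⟨y, hyC, hyZ, hy2, hyc⟩ := exists_step hd hcZ C hCn ⟨x, hx, hxZ⟩
      exact hyZ (hcase y ⟨Subgroup.mem_top _, hy2, hyc⟩ fun m hm =>
        (Subgroup.mem_centralizer_iff.1 hyC m hm).symm)
    have hcom : ∀ x p : P, x⁻¹ * p⁻¹ * x * p ∈ Subgroup.center P := by
      intro x p
      refine hCM _ (Subgroup.mem_centralizer_iff.2 fun m hm => ?_)
      -- conjugation multiplies `m` by a central element
      let z : P → P := fun q => m⁻¹ * q⁻¹ * m * q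
      have hz : ∀ q, z q ∈ Subgroup.center P := fun q => hm.2.2 q
      have hzc : ∀ q r, r * z q = z q * r := fun q r => Subgroup.mem_center_iff.1 (hz q) r
      have hzmul : ∀ q r, z (q * r) = z q * z r := fun q r => by
        calc z (q * r) = m⁻¹ * r⁻¹ * m * (z q * r) := by simp only [z]; group
          _ = m⁻¹ * r⁻¹ * m * (r * z q) := by rw [hzc q r]
          _ = z r * z q := by simp only [z]; group
          _ = _ := (hzc r (z q)).symm
      have hz1 : z 1 = 1 := by simp [z]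
      have hzi : ∀ q, z q⁻¹ = (z q)⁻¹ := fun q =>
        eq_inv_of_mul_eq_one_left (by rw [← hzmul, inv_mul_cancel, hz1])
      have h1 : z (x⁻¹ * p⁻¹ * x * p) = 1 := by
        rw [hzmul, hzmul, hzmul, hzi, hzi, mul_assoc (z x)⁻¹ (z p)⁻¹ (z x),
          hzc x (z p)⁻¹, ← mul_assoc (z x)⁻¹ (z x), inv_mul_cancel, one_mul, inv_mul_cancel]
      calc m * (x⁻¹ * p⁻¹ * x * p)
          = (x⁻¹ * p⁻¹ * x * p) * m * z (x⁻¹ * p⁻¹ * x * p) := by simp only [z]; group
        _ = _ := by rw [h1, mul_one]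
    refine ⟨fun x => hCM _ (Subgroup.mem_centralizer_iff.2 fun m hm => ?_), hcom⟩
    have hz := Subgroup.mem_center_iff.1 (hm.2.2 x)
    have hz2 := center_sq hd _ (hm.2.2 x)
    set z := m⁻¹ * x⁻¹ * m * x with hzdef
    calc m * (x * x) = x * (m * z) * x := by rw [hzdef]; group
      _ = x * (m * (x * z)) := by rw [mul_assoc x, mul_assoc m, ← hz x]
      _ = x * (x * (m * z) * z) := by rw [hzdef]; group
      _ = x * x * m * (z * z) := by group
      _ = _ := by rw [hz2, mul_one]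
  -- there is an abelian invariant subgroup of order `q²`
  exfalso
  simp only [not_forall] at hcase
  obtain ⟨a₀, ha₀M, ha₀c, ha₀Z⟩ := hcase
  let A₀ : Subgroup P := M ⊓ Subgroup.centralizer (M : Set P)
  have hA₀ : Good (Y := Y) A₀ := by
    refine ⟨fun a ha b hb => Subgroup.mem_centralizer_iff.1 hb.2 a ha.1, fun p a ha => ⟨hMn p a ha.1,
      Subgroup.mem_centralizer_iff.2 fun m hm => ?_⟩, fun g hg a ha => ⟨hMσ g hg a ha.1,
      Subgroup.mem_centralizer_iff.2 fun m hm => ?_⟩,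
      fun z hz => ⟨le_stepSubgroup hd hcZ le_top hz,
        Subgroup.mem_centralizer_iff.2 fun m _ => Subgroup.mem_center_iff.1 hz m⟩⟩
    · have h := Subgroup.mem_centralizer_iff.1 ha.2 _ (hMn p⁻¹ m hm)
      rw [inv_inv] at h
      calc m * (p⁻¹ * a * p) = p⁻¹ * ((p * m * p⁻¹) * a) * p := by group
        _ = _ := by rw [h]; group
    · obtain ⟨⟨m', hm'⟩, hm''⟩ := (Finite.injective_iff_surjective.1
        (show Function.Injective (fun a : M => (⟨g a.1, hMσ g hg a.1 a.2⟩ : M)) from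
          fun a b h => Subtype.ext (g.injective (congrArg Subtype.val h)))) ⟨m, hm⟩
      rw [← show g m' = m from congrArg Subtype.val hm'', ← map_mul, ← map_mul,
        Subgroup.mem_centralizer_iff.1 ha.2 m' hm']
  have ha₀A : a₀ ∈ A₀ := ⟨ha₀M, Subgroup.mem_centralizer_iff.2 fun m hm => (ha₀c m hm).symm⟩
  obtain ⟨A, ⟨hA, hA₀le⟩, hmaxA⟩ :=
    (Set.toFinite {B : Subgroup P | Good (Y := Y) B ∧ A₀ ≤ B}).exists_maximal ⟨A₀, hA₀, le_rfl⟩
  have hmax : ∀ B : Subgroup P, Good (Y := Y) B → A ≤ B → B ≤ A := fun B hB hle =>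
    hmaxA ⟨hB, hA₀le.trans hle⟩ hle
  have hA4 := exponent_four hd hA hmax
  have ha₀2 : a₀ * a₀ ≠ 1 := fun h => ha₀Z (mem_A_of_sq hd hcZ h)
  have h4 : ∃ a ∈ A, a * a ≠ 1 := ⟨a₀, hA₀le ha₀A, ha₀2⟩
  have hsc : ∀ y : P, (∀ a ∈ A, a * y = y * a) → y ∈ A := fun y hy =>
    centralizer_le hd hA hmax h4 hy
  have hAA₀ : A ≤ A₀ := by
    intro a ha
    by_cases h1 : a * a = 1
    · exact hA₀.center (mem_A_of_sq hd hcZ h1)
    have h0 : a₀ * a₀ * (a₀ * a₀) = 1 := hA4 a₀ (hA₀le ha₀A)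
    obtain ⟨g, hg, hi⟩ := hd.trans (a₀ * a₀) (a * a) ha₀2 h0 h1 (hA4 a ha)
    have hb : g a₀ ∈ A₀ := hA₀.inv g hg a₀ ha₀A
    rw [map_mul] at hi
    have h2 : a * (g a₀)⁻¹ * (a * (g a₀)⁻¹) = 1 := by
      have hc : Commute a (g a₀)⁻¹ := (hA.comm _ ha _ (hA₀le hb) : _ = _) |> fun h =>
        (show Commute a (g a₀) from h).inv_right
      calc a * (g a₀)⁻¹ * (a * (g a₀)⁻¹)
          = a * ((g a₀)⁻¹ * a) * (g a₀)⁻¹ := by group
        _ = a * (a * (g a₀)⁻¹) * (g a₀)⁻¹ := by rw [← hc.eq]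
        _ = a * a * (g a₀ * g a₀)⁻¹ := by group
        _ = 1 := by rw [hi, mul_inv_cancel]
    have := A₀.mul_mem (hA₀.center (mem_A_of_sq hd hcZ h2)) hb
    rwa [inv_mul_cancel_right] at this
  have hMA : ∀ m ∈ M, m ∈ A := fun m hm => hsc m fun a ha =>
    (Subgroup.mem_centralizer_iff.1 (hAA₀ ha).2 m hm).symm
  -- a field structure on the involutions
  obtain ⟨F, instF, instFt, instCh, σ, pre, ε, l, hσY, hlbig, hl1, hpreI, hpreadd, hε, hεpre,
    hpreσ, hsl⟩ := exists_frame hd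
  letI := instF
  letI := instFt
  haveI := instCh
  haveI : Fact (Nat.Prime 2) := ⟨Nat.prime_two⟩
  have htwo : ∀ x : F, x + x = 0 := CharTwo.add_self_eq_zero
  have hpreinj : Function.Injective pre := fun x y h => by rw [← hεpre x, h, hεpre]
  have hpre0 : pre 0 = 1 := by
    have h := hpreadd 0 0
    rw [add_zero] at h
    exact right_eq_mul.1 h
  have hεmul : ∀ u v, u * u = 1 → v * v = 1 → ε (u * v) = ε u + ε v := fun u v hu hv =>
    hpreinj (by rw [hε _ (invol_mul hd hu hv), hpreadd, hε u hu, hε v hv])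
  have hεσ : ∀ u, u * u = 1 → ε (σ u) = l * ε u := by
    intro u hu
    exact hpreinj (by rw [hε _ (by rw [← map_mul, hu, map_one]), hpreσ, hε u hu])
  have hl0 : l ≠ 0 := hlbig.1
  have hfix1 : ∀ z : P, σ z = z → z = 1 := by
    intro z hz
    by_contra hz1
    obtain ⟨k, hk⟩ := hd.pgroup z
    have hex : ∃ k, z ^ 2 ^ k = 1 := ⟨k, hk⟩
    have hk0 := Nat.find_spec hex
    rcases hf : Nat.find hex with _ | j
    · rw [hf] at hk0; exact hz1 (by simpa using hk0)
    rw [hf] at hk0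
    have hne : z ^ 2 ^ j ≠ 1 := Nat.find_min hex (show j < Nat.find hex by omega)
    have h2 : z ^ 2 ^ j * z ^ 2 ^ j = 1 := by rw [← pow_add, ← two_mul, ← pow_succ', hk0]
    have h3 : l * ε (z ^ 2 ^ j) = 1 * ε (z ^ 2 ^ j) := by rw [← hεσ _ h2, map_pow, hz, one_mul]
    exact hl1 (mul_right_cancel₀ (fun h0 => hne (by rw [← hε _ h2, h0, hpre0])) h3)
  -- square roots in `A`
  have hroot : ∀ x : F, ∃ a ∈ A, a * a = pre x := by
    intro x
    by_cases hx : pre x = 1
    · exact ⟨1, A.one_mem, by rw [hx, one_mul]⟩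
    obtain ⟨g, hg, hi⟩ := hd.trans (a₀ * a₀) (pre x) ha₀2 (hA4 a₀ (hA₀le ha₀A)) hx (hpreI x)
    exact ⟨g a₀, hA.inv g hg a₀ (hA₀le ha₀A),
      by rw [← map_mul, hi]⟩
  choose rt hrtA hrt using hroot
  have hdelI : ∀ y, ∀ a ∈ A, del y a * del y a = 1 := fun y a ha => by
    rw [← del_mul_right hd hA ha ha, del_invol hd (hA4 a ha)]
  have hdelsq : ∀ y, ∀ a ∈ A, del y a = del y (rt (ε (a * a))) := by
    intro y a ha
    have hr := hrtA (ε (a * a))
    set r := rt (ε (a * a)) with hrdef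
    have hrr : r * r = a * a := by rw [hrdef, hrt, hε _ (hA4 a ha)]
    have hc : Commute a r⁻¹ := (show Commute a r from hA.comm a ha r hr).inv_right
    have h2 : a * r⁻¹ * (a * r⁻¹) = 1 := by
      calc a * r⁻¹ * (a * r⁻¹) = a * (r⁻¹ * a) * r⁻¹ := by group
        _ = a * (a * r⁻¹) * r⁻¹ := by rw [← hc.eq]
        _ = a * a * (r * r)⁻¹ := by group
        _ = 1 := by rw [hrr, mul_inv_cancel]
    have := del_mul_right hd hA (y := y) (A.mul_mem ha (A.inv_mem hr)) hr
    rwa [inv_mul_cancel_right, del_invol hd h2, one_mul] at this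
  let Dop : P → F →+ F := fun y => AddMonoidHom.mk' (fun x => ε (del y (rt x))) (fun x x' => by
    rw [← hεmul _ _ (hdelI y _ (hrtA x)) (hdelI y _ (hrtA x')),
      ← del_mul_right hd hA (hrtA x) (hrtA x'), hdelsq y _ (A.mul_mem (hrtA x) (hrtA x'))]
    congr 3
    refine hpreinj ?_
    have hsq : rt x * rt x' * (rt x * rt x') = pre x * pre x' := by
      calc rt x * rt x' * (rt x * rt x') = rt x * (rt x' * rt x) * rt x' := by group
        _ = rt x * (rt x * rt x') * rt x' := by rw [hA.comm _ (hrtA x') _ (hrtA x)]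
        _ = (rt x * rt x) * (rt x' * rt x') := by group
        _ = _ := by rw [hrt, hrt]
    rw [hε _ (hA4 _ (A.mul_mem (hrtA x) (hrtA x'))), hsq, hpreadd])
  have hDop : ∀ y, ∀ a ∈ A, Dop y (ε (a * a)) = ε (del y a) := fun y a ha => by
    show ε (del y (rt _)) = _
    rw [← hdelsq y a ha]
  choose c hc using fun y => FieldMaps.exists_coeff 2 (Dop y)
  have hcext : ∀ y (g : (F ≃+* F) → F), (∀ x, Dop y x = ∑ τ, g τ * τ x) → c y = g := by
    intro y g h
    refine sub_eq_zero.1 (FieldMaps.sum_aut_eq_zero fun x => ?_)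
    simp only [Pi.sub_apply, sub_mul, Finset.sum_sub_distrib, ← hc, ← h, sub_self]
  have hcmul : ∀ y y', c (y * y') = c y + c y' := by
    intro y y'
    refine hcext _ _ fun x => ?_
    simp only [Pi.add_apply, add_mul, Finset.sum_add_distrib, ← hc]
    show ε (del (y * y') (rt x)) = ε (del y (rt x)) + ε (del y' (rt x))
    have h1 := hdelI y _ (hrtA x)
    rw [del_mul_left hd hA (hrtA x), mul_assoc y'⁻¹, invol_central hd h1 y', inv_mul_cancel_left,
      hεmul _ _ (hdelI y' _ (hrtA x)) h1, add_comm]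
  have hcA : ∀ y, c y = 0 ↔ y ∈ A := by
    intro y
    constructor
    · intro h
      refine hsc y fun a ha => ?_
      have h1 : ε (del y a) = 0 := by rw [← hDop y a ha, hc, h]; simp
      have h2 : del y a = 1 := by rw [← hε _ (hdelI y a ha), h1, hpre0]
      have h3 := del_conj y a
      rw [h2, mul_one] at h3
      calc a * y = y * (y⁻¹ * a * y) := by group
        _ = y * a := by rw [h3]
    · intro hy
      refine hcext y 0 fun x => ?_
      show ε (del y (rt x)) = _
      rw [del, mul_assoc y⁻¹, hA.comm _ (hrtA x) y hy, inv_mul_cancel_left, inv_mul_cancel]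
      simp only [Pi.zero_apply, zero_mul, Finset.sum_const_zero]
      rw [← hpre0, hεpre]
  let κ : (F ≃+* F) → F := fun τ => l / τ l
  -- the action of `Y` on coefficients
  have hcY : ∀ g ∈ Y, ∃ (a : F) (π : F ≃+* F), a ≠ 0 ∧
      ∀ y τ, c (g y) τ = a / τ a * π (c y τ) := by
    intro g hg
    obtain ⟨a, π, ha, hgp⟩ := hsl g hg
    refine ⟨a, π, ha, fun y τ =>
      congrFun (hcext (g y) (fun τ => a / τ a * π (c y τ)) fun x' => ?_) τ⟩
    obtain ⟨x, rfl⟩ : ∃ x, x' = a * π x :=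
      ⟨π.symm (x' / a), by rw [π.apply_symm_apply, mul_div_cancel₀ x' ha]⟩
    have h1 : Dop (g y) (a * π x) = a * π (Dop y x) := by
      refine hpreinj ?_
      show pre (ε (del (g y) (rt (a * π x)))) = pre (a * π (ε (del y (rt x))))
      rw [← hgp, hε _ (hdelI y _ (hrtA x)), hε _ (hdelI _ _ (hrtA _)), ← del_equiv,
        hdelsq (g y) _ (hA.inv g hg _ (hrtA x))]
      congr 2
      refine hpreinj ?_
      rw [hε _ (hA4 _ (hA.inv g hg _ (hrtA x))), ← map_mul, hrt, hgp]
    rw [h1, hc, map_sum, Finset.mul_sum]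
    refine Finset.sum_congr rfl fun τ _ => ?_
    have : τ a ≠ 0 := by simpa using ha
    rw [map_mul, map_mul, aut_comm π τ x]
    field_simp
  have hcσ : ∀ y τ, c (σ y) τ = κ τ * c y τ := by
    intro y
    refine fun τ => congrFun (hcext (σ y) (fun τ => κ τ * c y τ) fun x => ?_) τ
    obtain ⟨x, rfl⟩ : ∃ x', x = l * x' := ⟨x / l, (mul_div_cancel₀ x hl0).symm⟩
    have h1 : Dop (σ y) (l * x) = l * Dop y x := by
      show ε (del (σ y) (rt (l * x))) = l * ε (del y (rt x))
      rw [← hεσ _ (hdelI y _ (hrtA x)), ← del_equiv, hdelsq (σ y) _ (hA.inv σ hσY _ (hrtA x))]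
      congr 3
      refine hpreinj ?_
      rw [hε _ (hA4 _ (hA.inv σ hσY _ (hrtA x))), ← map_mul, hrt, hpreσ]
    rw [h1, hc, Finset.mul_sum]
    refine Finset.sum_congr rfl fun τ _ => ?_
    have : τ l ≠ 0 := by simpa using hl0
    simp only [κ, map_mul]
    field_simp
  -- `τ ↦ κ τ` is injective up to conjugacy
  have hκinj : ∀ τ τ' π : F ≃+* F, κ τ = π (κ τ') → τ = τ' := by
    intro τ τ' π h
    have hτl : τ l ≠ 0 := by simpa using hl0
    have hτ'l : π (τ' l) ≠ 0 := by simpa using hl0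
    refine eq_of_ratio_eq hlbig (π := π) ?_
    simp only [κ, map_div₀] at h
    rw [div_eq_div_iff hτl hτ'l] at h
    exact h.symm
  -- separating polynomials
  letI : Algebra (ZMod 2) F := ZMod.algebra F 2
  have hsep : ∀ τ τ' : F ≃+* F, τ ≠ τ' →
      ∃ S : Finset ℕ, ∑ i ∈ S, κ τ' ^ i = 0 ∧ ∑ i ∈ S, κ τ ^ i ≠ 0 := by
    intro τ τ' hne
    set p := minpoly (ZMod 2) (κ τ') with hp
    have hev : ∀ x : F, Polynomial.aeval x p = ∑ i ∈ p.support, x ^ i := by
      intro x
      rw [Polynomial.aeval_def, Polynomial.eval₂_eq_sum, Polynomial.sum]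
      refine Finset.sum_congr rfl fun i hi => ?_
      have : p.coeff i = 1 := (zmod_two_eq_one _ (Polynomial.mem_support_iff.1 hi))
      rw [this, map_one, one_mul]
    refine ⟨p.support, by rw [← hev]; exact minpoly.aeval _ _, fun h0 => hne ?_⟩
    rw [← hev] at h0
    have hint : IsIntegral (ZMod 2) (κ τ') := IsIntegral.of_finite _ _
    have hconj : IsConjRoot (ZMod 2) (κ τ') (κ τ) :=
      (isConjRoot_iff_aeval_eq_zero hint).2 h0
    obtain ⟨π, hπ⟩ := isConjRoot_iff_exists_algEquiv.1 hconj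
    exact hκinj τ τ' π.symm.toRingEquiv
      ((by rw [← hπ]; exact (π.symm_apply_apply _).symm) : κ τ = π.symm (κ τ'))
  -- operators
  have hc1 : c 1 = 0 := (hcA 1).2 A.one_mem
  have hop : ∀ (S : Finset ℕ) (y : P), ∃ y', ∀ τ, c y' τ = (∑ i ∈ S, κ τ ^ i) * c y τ := by
    intro S y
    have hci : ∀ (i : ℕ) τ, c ((σ ^ i) y) τ = κ τ ^ i * c y τ := by
      intro i τ
      induction i with
      | zero => simp
      | succ i ih => rw [pow_succ', MulAut.mul_apply, hcσ, ih, pow_succ]; ring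
    induction S using Finset.induction_on with
    | empty => exact ⟨1, fun τ => by simp [hc1]⟩
    | @insert a S ha ih =>
      obtain ⟨y', hy'⟩ := ih
      refine ⟨(σ ^ a) y * y', fun τ => ?_⟩
      rw [hcmul, Pi.add_apply, hci, hy', Finset.sum_insert ha, add_mul]
  have hoppow : ∀ (S : Finset ℕ) (k : ℕ) (y : P),
      ∃ y', ∀ τ, c y' τ = (∑ i ∈ S, κ τ ^ i) ^ k * c y τ := by
    intro S k
    induction k with
    | zero => intro y; exact ⟨y, fun τ => by simp⟩
    | succ k ih =>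
      intro y
      obtain ⟨y', hy'⟩ := hop S y
      obtain ⟨y'', hy''⟩ := ih y'
      exact ⟨y'', fun τ => by rw [hy'', hy', pow_succ]; ring⟩
  have hisolate : ∀ (τ : F ≃+* F) (y : P),
      ∃ m, c m τ = c y τ ∧ ∀ τ' ≠ τ, c m τ' = 0 := by
    intro τ y
    have : ∀ T : Finset (F ≃+* F), τ ∉ T → ∃ m, c m τ = c y τ ∧ ∀ τ' ∈ T, c m τ' = 0 := by
      intro T
      induction T using Finset.induction_on with
      | empty => exact fun _ => ⟨y, rfl, by simp⟩
      | @insert a T ha ih =>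
        intro hτ
        simp only [Finset.mem_insert, not_or] at hτ
        obtain ⟨m, hm, hmT⟩ := ih hτ.2
        obtain ⟨S, hS0, hS1⟩ := hsep τ a hτ.1
        obtain ⟨m', hm'⟩ := hoppow S (Fintype.card F - 1) m
        refine ⟨m', by rw [hm', FiniteField.pow_card_sub_one_eq_one _ hS1, one_mul, hm],
          fun τ' hτ' => ?_⟩
        rcases Finset.mem_insert.1 hτ' with rfl | h
        · rw [hm', hS0, zero_pow (by have := Fintype.one_lt_card (α := F); omega), zero_mul]
        · rw [hm', hmT τ' h, mul_zero]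
    obtain ⟨m, hm, hmT⟩ := this (Finset.univ.erase τ) (by simp)
    exact ⟨m, hm, fun τ' hne => hmT τ' (Finset.mem_erase.2 ⟨hne, Finset.mem_univ _⟩)⟩
  -- monomial elements
  let Mon : Set P := {y | ∃ τ, ∀ τ' ≠ τ, c y τ' = 0}
  have hgenMon : Subgroup.closure Mon = ⊤ := by
    refine eq_top_iff.2 fun y _ => ?_
    have : ∀ T : Finset (F ≃+* F), ∃ w ∈ Subgroup.closure Mon, ∀ τ, c w τ = if τ ∈ T then c y τ else 0 := by
      intro T
      induction T using Finset.induction_on with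
      | empty => exact ⟨1, one_mem _, fun τ => by simp [hc1]⟩
      | @insert a T ha ih =>
        obtain ⟨w, hw, hwc⟩ := ih
        obtain ⟨m, hm, hm'⟩ := hisolate a y
        refine ⟨m * w, mul_mem (Subgroup.subset_closure ⟨a, hm'⟩) hw, fun τ => ?_⟩
        rw [hcmul, Pi.add_apply, hwc]
        by_cases hτ : τ = a
        · subst hτ
          simp [ha, hm]
        · simp [hτ, hm' τ hτ]
    obtain ⟨w, hw, hwc⟩ := this Finset.univ
    have h1 : y * w⁻¹ ∈ A := by
      rw [← hcA]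
      have h2 := hcmul (y * w⁻¹) w
      rw [inv_mul_cancel_right] at h2
      have h3 : c w = c y := funext fun τ => by simpa using hwc τ
      rw [h3] at h2
      exact right_eq_add.1 h2
    have h4 : y * w⁻¹ ∈ Subgroup.closure Mon :=
      Subgroup.subset_closure ⟨RingEquiv.refl F, fun τ _ => congrFun ((hcA _).2 h1) τ⟩
    simpa using mul_mem h4 hw
  -- squares and commutators lie in `A`
  have hsqA : ∀ y, y * y ∈ A := fun y => (hcA _).1 (funext fun τ => by
    rw [hcmul, Pi.add_apply, htwo]; rfl)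
  have hcomA : ∀ y p, y⁻¹ * p⁻¹ * y * p ∈ A := fun y p => (hcA _).1 (funext fun τ => by
    have hinv : ∀ z, c z⁻¹ τ = c z τ := fun z => by
      have := congrFun (hcmul z⁻¹ z) τ
      rw [inv_mul_cancel, hc1] at this
      rw [← add_zero (c z⁻¹ τ), ← htwo (c z τ), ← add_assoc,
        show c z⁻¹ τ + c z τ = 0 from this.symm, zero_add]
    rw [hcmul, hcmul, hcmul]
    simp only [Pi.add_apply, hinv, Pi.zero_apply]
    rw [add_assoc (c y τ + c p τ), htwo])
  let q : P → P := fun y => y * y * (y * y)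
  have hqI : ∀ y, q y * q y = 1 := fun y => by
    simp only [q]; simp [hA4 _ (hsqA y)]
  have hDq : ∀ y, Dop y (ε (q y)) = 0 := fun y => by
    simp only [q]
    rw [hDop y _ (hsqA y), show del y (y * y) = 1 by simp only [del]; group, ← hpre0, hεpre]
  -- monomial elements outside `A` are moved by `σ`
  have hnoid : ∀ y, (∀ τ' ≠ RingEquiv.refl F, c y τ' = 0) → y ∈ A := by
    intro y hy
    by_contra hyA
    have hb : y⁻¹ * σ y ∈ A := (hcA _).1 (funext fun τ => by
      have h := congrFun (hcmul y (y⁻¹ * σ y)) τ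
      rw [mul_inv_cancel_left, Pi.add_apply, hcσ] at h
      have h' : c y τ + 0 = c y τ + c (y⁻¹ * σ y) τ := by
        rw [add_zero, ← h]
        by_cases hτ : τ = RingEquiv.refl F
        · subst hτ; simp [κ, hl0]
        · rw [hy τ hτ, mul_zero]
      exact (add_left_cancel h').symm)
    set b := y⁻¹ * σ y with hbdef
    let f : A → A := fun a => ⟨σ a.1 * a.1⁻¹, A.mul_mem (hA.inv σ hσY _ a.2) (A.inv_mem a.2)⟩
    have hf : Function.Injective f := by
      intro a a' h
      have h' : σ a.1 * a.1⁻¹ = σ a'.1 * a'.1⁻¹ := congrArg Subtype.val h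
      have h2 : σ (a'.1⁻¹ * a.1) = a'.1⁻¹ * a.1 := by
        rw [map_mul, map_inv]
        have e1 : σ a.1 = σ a'.1 * (a'.1⁻¹ * a.1) := by
          rw [← mul_assoc, ← h', inv_mul_cancel_right]
        rw [e1, inv_mul_cancel_left]
      exact Subtype.ext (inv_mul_eq_one.1 (hfix1 _ h2)).symm
    obtain ⟨⟨a, ha⟩, hab⟩ := Finite.injective_iff_surjective.1 hf ⟨b⁻¹, A.inv_mem hb⟩
    have hab' : σ a * a⁻¹ = b⁻¹ := congrArg Subtype.val hab
    have hfix : σ (y * a) = y * a := by
      rw [map_mul, show σ y = y * b by rw [hbdef, mul_inv_cancel_left],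
        show σ a = b⁻¹ * a by rw [← hab', inv_mul_cancel_right]]
      group
    have h1 := hfix1 _ hfix
    exact hyA (by rw [eq_inv_of_mul_eq_one_left h1]; exact A.inv_mem ha)
  -- the commutator pairing
  let B : P → P → P := fun y y' => (y'⁻¹ * y⁻¹ * y' * y) * (y'⁻¹ * y⁻¹ * y' * y)
  have hBI : ∀ y y', B y y' * B y y' = 1 := fun y y' => hA4 _ (hcomA y' y)
  have hq : ∀ y y', q (y * y') = q y * q y' * B y y' := by
    intro y y'
    set d := y'⁻¹ * y⁻¹ * y' * y with hddef
    have hdA : d ∈ A := hcomA y' y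
    have h1 : y * y' * (y * y') = y * y * (y' * y') * (y'⁻¹ * d * y') := by rw [hddef]; group
    have hconj : y'⁻¹ * d * y' * (y'⁻¹ * d * y') = d * d := by
      calc y'⁻¹ * d * y' * (y'⁻¹ * d * y') = y'⁻¹ * (d * d * y') := by group
        _ = d * d := by rw [invol_central hd (hA4 d hdA) y', inv_mul_cancel_left]
    have hd' : y'⁻¹ * d * y' ∈ A := hA.conj y' d hdA
    have hcA' := hA.comm
    have sqm : ∀ a ∈ A, ∀ b ∈ A, a * b * (a * b) = a * a * (b * b) := fun a ha b hb => by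
      calc a * b * (a * b) = a * (b * a) * b := by group
        _ = a * (a * b) * b := by rw [hcA' b hb a ha]
        _ = _ := by group
    simp only [q]
    rw [h1, sqm _ (A.mul_mem (hsqA y) (hsqA y')) _ hd', sqm _ (hsqA y) _ (hsqA y'), hconj]
  have hDB : ∀ y y', ε (B y y') + Dop y' (ε (B y y')) = Dop y (ε (q y')) := by
    intro y y'
    set d := y'⁻¹ * y⁻¹ * y' * y with hddef
    have hdA : d ∈ A := hcomA y' y
    have h1 : del y (y' * y') = d * d * del y' d := by
      have h2 : d * d * del y' d = d * (y'⁻¹ * d * y') := by simp only [del]; group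
      rw [h2, hA.comm d hdA _ (hA.conj y' d hdA)]
      simp only [del, hddef]; group
    show ε (d * d) + _ = _
    rw [hDop y' d hdA, ← hεmul _ _ (hA4 d hdA) (hdelI y' d hdA), ← h1, ← hDop y _ (hsqA y')]
  have hBl : ∀ y₁ y₂ y', B (y₁ * y₂) y' = B y₁ y' * B y₂ y' := by
    intro y₁ y₂ y'
    set d₁ := y'⁻¹ * y₁⁻¹ * y' * y₁ with h1def
    set d₂ := y'⁻¹ * y₂⁻¹ * y' * y₂ with h2def
    have e : y'⁻¹ * (y₁ * y₂)⁻¹ * y' * (y₁ * y₂) = d₂ * (y₂⁻¹ * d₁ * y₂) := by
      rw [h1def, h2def]; group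
    have hconj : y₂⁻¹ * d₁ * y₂ * (y₂⁻¹ * d₁ * y₂) = d₁ * d₁ := by
      calc y₂⁻¹ * d₁ * y₂ * (y₂⁻¹ * d₁ * y₂) = y₂⁻¹ * (d₁ * d₁ * y₂) := by group
        _ = d₁ * d₁ := by rw [invol_central hd (hA4 d₁ (hcomA y' y₁)) y₂, inv_mul_cancel_left]
    have hmem : y₂⁻¹ * d₁ * y₂ ∈ A := hA.conj y₂ d₁ (hcomA y' y₁)
    show (y'⁻¹ * (y₁ * y₂)⁻¹ * y' * (y₁ * y₂)) * (y'⁻¹ * (y₁ * y₂)⁻¹ * y' * (y₁ * y₂)) =
      d₁ * d₁ * (d₂ * d₂)
    rw [e]
    calc d₂ * (y₂⁻¹ * d₁ * y₂) * (d₂ * (y₂⁻¹ * d₁ * y₂))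
        = d₂ * ((y₂⁻¹ * d₁ * y₂) * d₂) * (y₂⁻¹ * d₁ * y₂) := by group
      _ = d₂ * (d₂ * (y₂⁻¹ * d₁ * y₂)) * (y₂⁻¹ * d₁ * y₂) := by
        rw [hA.comm _ hmem d₂ (hcomA y' y₂)]
      _ = d₂ * d₂ * (y₂⁻¹ * d₁ * y₂ * (y₂⁻¹ * d₁ * y₂)) := by group
      _ = _ := by rw [hconj, ← invol_central hd (hA4 d₁ (hcomA y' y₁))]
  have hBsymm : ∀ y y', B y y' = B y' y := fun y y' => by
    have h1 := inv_eq_of_mul_eq_one_right (hBI y y')
    rw [← h1]
    simp only [B]
    group
  -- monomial elements square into the involutions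
  have hDmon : ∀ y τ, (∀ τ' ≠ τ, c y τ' = 0) → ∀ x, Dop y x = c y τ * τ x := by
    intro y τ hy x
    rw [hc, Finset.sum_eq_single τ]
    · intro τ' _ hne; rw [hy τ' hne, zero_mul]
    · simp
  have hqMon : ∀ y ∈ Mon, q y = 1 := by
    rintro y ⟨τ, hy⟩
    by_cases hyA : y ∈ A
    · simp only [q]; rw [hA4 y hyA]
    have h := hDq y
    rw [hDmon y τ hy, mul_eq_zero] at h
    have hcne : c y τ ≠ 0 := fun h0 => hyA ((hcA y).1 (funext fun τ' => by
      by_cases hτ : τ' = τ
      · rw [hτ]; exact h0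
      · exact hy τ' hτ))
    have h0 : ε (q y) = 0 := by simpa using h.resolve_left hcne
    rw [← hε _ (hqI y), h0, hpre0]
  -- the pairing vanishes
  have hBMon : ∀ y ∈ Mon, ∀ y' ∈ Mon, B y y' = 1 := by
    rintro y ⟨τ, hy⟩ y' ⟨τ', hy'⟩
    have hsame : ∀ y' : P, (∀ τ'' ≠ τ, c y' τ'' = 0) → B y y' = 1 := by
      intro y' hy'
      have h1 : y * y' ∈ Mon := ⟨τ, fun τ'' h => by
        rw [hcmul, Pi.add_apply, hy τ'' h, hy' τ'' h, add_zero]⟩
      have h := hq y y'
      rw [hqMon _ h1, hqMon y ⟨τ, hy⟩, hqMon y' ⟨τ, hy'⟩, one_mul, one_mul] at h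
      exact h.symm
    by_cases hττ : τ' = τ
    · subst hττ; exact hsame y' hy'
    by_contra hne
    -- the zero elements
    have hyA : y ∉ A := fun h => hne (by
      rw [hBsymm]
      have h1 : B y' y = 1 := by
        simp only [B]
        rw [← del_invol hd (hA4 y h) (y := y'), del_mul_right hd hA h h]
        simp only [del]; group
      exact h1)
    have hτ1 : τ ≠ RingEquiv.refl F := fun h => hyA (hnoid y (h ▸ hy))
    have hy'A : y' ∉ A := fun h => hne (by
      simp only [B]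
      rw [← del_invol hd (hA4 y' h) (y := y), del_mul_right hd hA h h]
      simp only [del]; group)
    have hτ'1 : τ' ≠ RingEquiv.refl F := fun h => hy'A (hnoid y' (h ▸ hy'))
    have hcy : c y τ ≠ 0 := fun h0 => hyA ((hcA y).1 (funext fun τ'' => by
      by_cases h : τ'' = τ
      · rw [h]; exact h0
      · exact hy τ'' h))
    have hcy' : c y' τ' ≠ 0 := fun h0 => hy'A ((hcA y').1 (funext fun τ'' => by
      by_cases h : τ'' = τ'
      · rw [h]; exact h0
      · exact hy' τ'' h))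
    have hmul : ∀ z z' τ, c (z * z') τ = c z τ + c z' τ := fun z z' τ => congrFun (hcmul z z') τ
    let Val : (F ≃+* F) → AddSubgroup F := fun τ =>
      { carrier := {r | ∃ z, (∀ τ'' ≠ τ, c z τ'' = 0) ∧ c z τ = r}
        zero_mem' := ⟨1, fun τ'' _ => by rw [hc1]; rfl, by rw [hc1]; rfl⟩
        add_mem' := by
          rintro _ _ ⟨z, hz, rfl⟩ ⟨z', hz', rfl⟩
          exact ⟨z * z', fun τ'' h => by rw [hmul, hz τ'' h, hz' τ'' h, add_zero], hmul z z' τ⟩
        neg_mem' := fun {r} hr => by rw [neg_eq_iff_add_eq_zero.2 (htwo r)]; exact hr }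
    let P1 : (F ≃+* F) → P → Prop := fun τ z => ∀ τ'' ≠ τ, c z τ'' = 0
    -- both coefficients are determined by the value
    have hfix : ∀ z z', P1 τ z → P1 τ' z' → c z τ * τ (ε (B z z')) = ε (B z z') ∧
        c z' τ' * τ' (ε (B z z')) = ε (B z z') := by
      intro z z' hz hz'
      have e1 := hDB z z'
      have e2 := hDB z' z
      rw [hqMon _ ⟨τ', hz'⟩, show ε 1 = (0 : F) by rw [← hpre0, hεpre], map_zero,
        hDmon _ τ' hz'] at e1
      rw [hqMon _ ⟨τ, hz⟩, show ε 1 = (0 : F) by rw [← hpre0, hεpre], map_zero,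
        hDmon _ τ hz, ← hBsymm z] at e2
      exact ⟨add_left_cancel (e2.trans (htwo _).symm), add_left_cancel (e1.trans (htwo _).symm)⟩
    have hne0 : ∀ z z', B z z' ≠ 1 → ε (B z z') ≠ 0 := fun z z' h h0 =>
      h (by rw [← hε _ (hBI z z'), h0, hpre0])
    have hcne : ∀ z z', P1 τ z → P1 τ' z' → B z z' ≠ 1 → c z τ ≠ 0 ∧ c z' τ' ≠ 0 := by
      intro z z' hz hz' h
      obtain ⟨a1, a2⟩ := hfix z z' hz hz'
      constructor <;> intro h0
      · rw [h0, zero_mul] at a1; exact hne0 z z' h a1.symm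
      · rw [h0, zero_mul] at a2; exact hne0 z z' h a2.symm
    have hBr : ∀ z z₁ z₂, B z (z₁ * z₂) = B z z₁ * B z z₂ := fun z z₁ z₂ => by
      rw [hBsymm z, hBl, hBsymm z₁, hBsymm z₂]
    -- all pairs have non-trivial values
    have hright : ∀ z z' z'', P1 τ z → P1 τ' z' → P1 τ' z'' → B z z' ≠ 1 → c z'' τ' ≠ 0 →
        B z z'' ≠ 1 := by
      intro z z' z'' hz hz' hz'' h hc'' h1
      have hp : P1 τ' (z' * z'') := fun t ht => by rw [hmul, hz' t ht, hz'' t ht, add_zero]
      have he : ε (B z (z' * z'')) = ε (B z z') := by rw [hBr, h1, mul_one]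
      have a1 := (hfix z _ hz hp).2
      rw [he, hmul] at a1
      have a2 := (hfix z z' hz hz').2
      have h2 := mul_right_cancel₀ (by simpa using hne0 z z' h) (a1.trans a2.symm)
      exact hc'' (add_eq_left.1 h2)
    have hleft : ∀ z z₂ z', P1 τ z → P1 τ z₂ → P1 τ' z' → B z z' ≠ 1 → c z₂ τ ≠ 0 →
        B z₂ z' ≠ 1 := by
      intro z z₂ z' hz hz₂ hz' h hc'' h1
      have hp : P1 τ (z * z₂) := fun t ht => by rw [hmul, hz t ht, hz₂ t ht, add_zero]
      have he : ε (B (z * z₂) z') = ε (B z z') := by rw [hBl, h1, mul_one]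
      have a1 := (hfix _ z' hp hz').1
      rw [he, hmul] at a1
      have a2 := (hfix z z' hz hz').1
      have h2 := mul_right_cancel₀ (by simpa using hne0 z z' h) (a1.trans a2.symm)
      exact hc'' (add_eq_left.1 h2)
    have hpair : ∀ z z', P1 τ z → P1 τ' z' → c z τ ≠ 0 → c z' τ' ≠ 0 → B z z' ≠ 1 :=
      fun z z' hz hz' h h' => hleft y z z' hy hz hz' (hright y y' z' hy hy' hz' hne h') h
    -- the coefficient determines the element up to `A`
    have hA1 : ∀ w ∈ A, ∀ z, B w z = 1 := fun w hw z => by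
      rw [hBsymm]
      simp only [B]
      rw [← del_invol hd (hA4 w hw) (y := z), del_mul_right hd hA hw hw]
      simp only [del]; group
    have hwd : ∀ t z z₂ w, P1 t z → P1 t z₂ → c z t = c z₂ t → B z w = B z₂ w := by
      intro t z z₂ w hz hz₂ h
      have h1 : z * z₂⁻¹ ∈ A := by
        rw [← hcA]
        funext t'
        have h2 := hmul (z * z₂⁻¹) z₂ t'
        rw [inv_mul_cancel_right] at h2
        have h3 : c z t' = c z₂ t' := by
          by_cases h' : t' = t
          · rw [h', h]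
          · rw [hz t' h', hz₂ t' h']
        rw [h3] at h2
        exact right_eq_add.1 h2
      rw [← inv_mul_cancel_right z z₂, hBl, hA1 _ h1, one_mul]
    choose sec hsec hsecc using fun (t : F ≃+* F) (r : F) (hr : r ∈ Val t) => hr
    let G : F → F → F := fun r r' => if h : r ∈ Val τ ∧ r' ∈ Val τ' then
      ε (B (sec τ r h.1) (sec τ' r' h.2)) else 0
    refine no_paired_values hτ1 hτ'1 ?_ (Val τ) (Val τ') G ?_ ?_
    · rw [Fintype.two_lt_card_iff]
      exact ⟨0, 1, l, zero_ne_one, hl0.symm, hl1.symm⟩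
    · intro r hr r' hr' h0 h0'
      simp only [G, dif_pos (And.intro hr hr')]
      obtain ⟨a1, a2⟩ := hfix _ _ (hsec τ r hr) (hsec τ' r' hr')
      rw [hsecc] at a1 a2
      exact ⟨hne0 _ _ (hpair _ _ (hsec τ r hr) (hsec τ' r' hr')
        (by rw [hsecc]; exact h0) (by rw [hsecc]; exact h0')), a1, a2⟩
    · intro r hr
      have hr1 : pre r ≠ 1 := fun h => hr (hpreinj (h.trans hpre0.symm))
      obtain ⟨g, hg, hg'⟩ := hd.trans (B y y') (pre r) hne (hBI y y') hr1 (hpreI r)
      obtain ⟨a, π, ha, hcg⟩ := hcY g hg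
      have hgy : P1 τ (g y) := fun t ht => by rw [hcg, hy t ht, map_zero, mul_zero]
      have hgy' : P1 τ' (g y') := fun t ht => by rw [hcg, hy' t ht, map_zero, mul_zero]
      have hB' : B (g y) (g y') = pre r := by rw [← hg']; simp [B]
      obtain ⟨h0, h0'⟩ := hcne _ _ hgy hgy' (hB' ▸ hr1)
      have m1 : c (g y) τ ∈ Val τ := ⟨g y, hgy, rfl⟩
      have m2 : c (g y') τ' ∈ Val τ' := ⟨g y', hgy', rfl⟩
      refine ⟨_, m1, _, m2, h0, h0', ?_⟩
      simp only [G, dif_pos (And.intro m1 m2)]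
      rw [hwd τ _ (g y) _ (hsec τ _ m1) hgy (hsecc τ _ m1), hBsymm (g y),
        hwd τ' _ (g y') _ (hsec τ' _ m2) hgy' (hsecc τ' _ m2), hBsymm (g y'), hB', hεpre]
  -- hence all fourth powers are trivial
  have hBall : ∀ y y', B y y' = 1 := by
    intro y y'
    have h1 : ∀ z ∈ Mon, ∀ y, B y z = 1 := by
      intro z hz y
      refine Subgroup.closure_induction (p := fun y _ => B y z = 1) (fun w hw => hBMon w hw z hz)
        (by simp [B]) (fun a b _ _ ha hb => by rw [hBl, ha, hb, one_mul]) (fun a _ ha => ?_)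
        (hgenMon ▸ Subgroup.mem_top y)
      have := hBl a⁻¹ a z
      rw [inv_mul_cancel, show B 1 z = 1 by simp [B], ha, mul_one] at this
      exact this.symm
    rw [hBsymm]
    refine Subgroup.closure_induction (p := fun w _ => B w y = 1)
      (fun w hw => by rw [hBsymm]; exact h1 w hw y)
      (by simp [B]) (fun a b _ _ ha hb => by rw [hBl, ha, hb, one_mul]) (fun a _ ha => ?_)
      (hgenMon ▸ Subgroup.mem_top y')
    have := hBl a⁻¹ a y
    rw [inv_mul_cancel, show B 1 y = 1 by simp [B], ha, mul_one] at this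
    exact this.symm
  have hq1 : ∀ y, q y = 1 := by
    intro y
    refine Subgroup.closure_induction (p := fun y _ => q y = 1) hqMon
      (by simp [q]) (fun a b _ _ ha hb => by rw [hq, ha, hb, hBall, one_mul, one_mul])
      (fun a _ ha => ?_) (hgenMon ▸ Subgroup.mem_top y)
    simp only [q] at ha ⊢
    rw [← mul_inv_rev a a, ← mul_inv_rev, ha, inv_one]
  have hsqc : ∀ x : P, x * x ∈ Subgroup.center P := fun x => mem_A_of_sq hd hcZ (hq1 x)
  have hall : ∀ x : P, x ∈ A := fun x => hMA x ⟨Subgroup.mem_top _, hsqc x, fun p => by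
    have e : x⁻¹ * p⁻¹ * x * p = x⁻¹ * x⁻¹ * (x * p⁻¹ * (x * p⁻¹)) * (p * p) := by group
    rw [e]
    exact mul_mem (mul_mem (by rw [← mul_inv_rev]; exact inv_mem (hsqc x)) (hsqc _)) (hsqc p)⟩
  obtain ⟨x, y, hxy⟩ := hd.noncomm
  exact hxy (hA.comm x (hall x) y (hall y))

end Cfsg.Agent.Suzuki2S
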