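import Cfsg.Agent.Suzuki2S.TwoPow
import Cfsg.Agent.FieldMaps.Additive
import Mathlib.FieldTheory.Finite.Basic
import Mathlib.GroupTheory.Index

/-!
# Transitive semilinear groups on a finite field of characteristic two

The multiplier `l` of the linear part of such a group is large enough that products of two
automorphisms are still determined by their values at `l`.
-/

set_option autoImplicit false
set_option linter.unusedSectionVars false
set_option linter.style.haveILetI false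

namespace Cfsg.Agent.Suzuki2S

variable {F : Type*} [Field F] [Fintype F]

/-- `l` has a big enough order: its cofactor in `|F| - 1` divides the degree of `F`. -/
def IsBig (l : F) : Prop :=
  l ≠ 0 ∧ Fintype.card F - 1 ∣ orderOf l * Fintype.card (F ≃+* F)

/-- A transitive semilinear group contains a big multiplier. -/
theorem exists_big {Y : Type*} [Group Y] [Finite Y] (act : Y → F → F)
    (hmul : ∀ g h x, act (g * h) x = act g (act h x))
    (hone : ∀ x, act 1 x = x)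
    (hsemi : ∀ g, ∃ (a : F) (π : F ≃+* F), ∀ x, act g x = a * π x)
    (htrans : ∀ x y : F, x ≠ 0 → y ≠ 0 → ∃ g, act g x = y) :
    ∃ (g : Y) (l : F), IsBig l ∧ ∀ x, act g x = l * x := by
  classical
  choose a π hπ using hsemi
  have hact0 : ∀ g, act g 0 = 0 := fun g => by rw [hπ, map_zero, mul_zero]
  have hne : ∀ g x, x ≠ 0 → act g x ≠ 0 := fun g x hx h => hx (by
    rw [← hone x, ← inv_mul_cancel g, hmul, h, hact0])
  have ha1 : ∀ g, act g 1 = a g := fun g => by rw [hπ, map_one, mul_one]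
  have ha : ∀ g, a g ≠ 0 := fun g => ha1 g ▸ hne g 1 one_ne_zero
  -- the automorphism part is a homomorphism
  let φ : Y →* (F ≃+* F) := MonoidHom.mk' π fun g h => RingEquiv.ext fun x => by
    have e : a (g * h) = a g * π g (a h) := by rw [← ha1, hmul, ha1, hπ]
    have h1 := hmul g h x
    rw [hπ, hπ, hπ, map_mul, e, mul_assoc (a g) (π g (a h))] at h1
    exact mul_left_cancel₀ (by simpa using ha h) (mul_left_cancel₀ (ha g) h1)
  have hK : ∀ k : φ.ker, ∀ x, act k x = a k * x := fun k x => by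
    rw [hπ, show π k.1 = RingEquiv.refl F from k.2]; rfl
  let ψ : φ.ker →* Fˣ := MonoidHom.mk' (fun k => Units.mk0 (a k) (ha k)) fun k k' => by
    refine Units.ext ?_
    show a (k * k' : Y) = a k * a k'
    rw [← ha1, hmul, ha1, hK]
  obtain ⟨⟨u, k, rfl⟩, hgen⟩ := IsCyclic.exists_generator (α := ψ.range)
  refine ⟨k, a k, ⟨ha k, ?_⟩, hK k⟩
  have hord : orderOf (a k) = Nat.card ψ.range := by
    rw [← orderOf_eq_card_of_forall_mem_zpowers hgen, ← Subgroup.orderOf_coe, ← orderOf_units]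
    rfl
  -- the stabiliser of `1`
  letI : MulAction Y {x : F // x ≠ 0} :=
    { smul := fun g x => ⟨act g x, hne g x x.2⟩
      one_smul := fun x => Subtype.ext (hone x)
      mul_smul := fun g h x => Subtype.ext (hmul g h x) }
  haveI : MulAction.IsPretransitive Y {x : F // x ≠ 0} :=
    ⟨fun x y => (htrans x y x.2 y.2).imp fun g hg => Subtype.ext hg⟩
  set S := MulAction.stabilizer Y (⟨1, one_ne_zero⟩ : {x : F // x ≠ 0}) with hS
  have hSidx : S.index = Fintype.card F - 1 := by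
    rw [hS, MulAction.index_stabilizer_of_transitive, Nat.card_eq_fintype_card,
      Fintype.card_subtype_compl, Fintype.card_subtype_eq]
  have hmem : ∀ g, g ∈ S ↔ a g = 1 := fun g => by
    rw [hS, MulAction.mem_stabilizer_iff, ← ha1]
    exact ⟨fun h => congrArg Subtype.val h, fun h => Subtype.ext h⟩
  have hrel : (S ⊓ φ.ker).relIndex φ.ker = Nat.card ψ.range := by
    rw [Subgroup.relIndex, ← Subgroup.index_ker]
    congr 1
    ext k'
    rw [Subgroup.mem_subgroupOf, Subgroup.mem_inf, MonoidHom.mem_ker (f := ψ), hmem]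
    exact ⟨fun h => Units.ext h.1, fun h => ⟨congrArg Units.val h, k'.2⟩⟩
  have h1 := Subgroup.relIndex_mul_index (inf_le_right : S ⊓ φ.ker ≤ φ.ker)
  have h2 : S.index ∣ (S ⊓ φ.ker).index := Subgroup.index_dvd_of_le inf_le_left
  rw [← h1, hrel, ← hord, hSidx, Subgroup.index_ker] at h2
  refine h2.trans (Nat.mul_dvd_mul_left _ ?_)
  rw [← Nat.card_eq_fintype_card]
  exact Subgroup.card_subgroup_dvd_card _

variable [CharP F 2]

/-- The exponents of automorphisms. -/
theorem exists_exponents :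
    ∃ n, 0 < n ∧ Fintype.card F = 2 ^ n ∧ Fintype.card (F ≃+* F) = n ∧
      ∀ τ : F ≃+* F, ∃ i < n, ∀ x, τ x = x ^ 2 ^ i := by
  haveI : Fact (Nat.Prime 2) := ⟨Nat.prime_two⟩
  letI : Algebra (ZMod 2) F := ZMod.algebra F 2
  obtain ⟨n, hn, haut⟩ := FieldMaps.card_aut (F := F) 2
  have hfr : Module.finrank (ZMod 2) F = n := by
    have h := Module.card_eq_pow_finrank (K := ZMod 2) (V := F)
    rw [ZMod.card, hn] at h
    exact (Nat.pow_right_injective le_rfl h).symm
  refine ⟨n, hfr ▸ Module.finrank_pos, hn, haut, fun τ => ?_⟩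
  have hc : ∀ x : ZMod 2, τ (algebraMap (ZMod 2) F x) = algebraMap (ZMod 2) F x := fun x =>
    RingHom.congr_fun (RingHom.ext_zmod ((τ : F →+* F).comp (algebraMap (ZMod 2) F))
      (algebraMap (ZMod 2) F)) x
  obtain ⟨i, hi⟩ := (FiniteField.bijective_frobeniusAlgEquivOfAlgebraic_pow (ZMod 2) F).2
    (AlgEquiv.ofRingEquiv (f := τ) hc)
  refine ⟨i, hfr ▸ i.2, fun x => ?_⟩
  have h := DFunLike.congr_fun hi x
  simp only [AlgEquiv.coe_pow, FiniteField.coe_frobeniusAlgEquivOfAlgebraic_iterate,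
    ZMod.card] at h
  exact h.symm

theorem isBig_data {l : F} (hl : IsBig l) :
    ∃ n, 0 < n ∧ orderOf l ∣ 2 ^ n - 1 ∧ 2 ^ n - 1 ∣ orderOf l * n ∧
      (∀ τ : F ≃+* F, ∃ i < n, ∀ x, τ x = x ^ 2 ^ i) ∧ ∀ x : F, x ^ 2 ^ n = x := by
  obtain ⟨n, hn, hcard, haut, hexp⟩ := exists_exponents (F := F)
  refine ⟨n, hn, orderOf_dvd_of_pow_eq_one ?_, ?_, hexp, fun x => hcard ▸ FiniteField.pow_card x⟩
  · rw [← hcard]; exact FiniteField.pow_card_sub_one_eq_one l hl.1
  · rw [← hcard, ← haut]; exact hl.2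

theorem pow_eq_pow_modEq {l : F} (hl : IsBig l) {i j : ℕ} (h : l ^ i = l ^ j) :
    i ≡ j [MOD orderOf l] := by
  rwa [(isOfFinOrder_iff_pow_eq_one.2 ⟨Fintype.card F - 1, Nat.sub_pos_of_lt Fintype.one_lt_card,
    FiniteField.pow_card_sub_one_eq_one l hl.1⟩).pow_eq_pow_iff_modEq] at h

/-- If `σ l * τ l = l` then `σ = τ`. -/
theorem eq_of_mul_eq {l : F} (hl : IsBig l) {σ τ : F ≃+* F} (h : σ l * τ l = l) : σ = τ := by
  obtain ⟨n, hn, hm, hmn, hexp, -⟩ := isBig_data hl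
  obtain ⟨a, ha, hσ⟩ := hexp σ
  obtain ⟨b, hb, hτ⟩ := hexp τ
  rw [hσ, hτ, ← pow_add] at h
  have h' : 2 ^ a + 2 ^ b ≡ 2 ^ 0 [MOD orderOf l] :=
    pow_eq_pow_modEq hl (by rw [pow_zero, pow_one]; exact h)
  have := eq_of_modEq_pow hn hm hmn ha hb hn h'
  exact RingEquiv.ext fun x => by rw [hσ, hτ, this]

/-- The ratios `l / τ l` of different automorphisms are not conjugate. -/
theorem eq_of_ratio_eq {l : F} (hl : IsBig l) {τ τ' π : F ≃+* F}
    (h : π l * τ l = l * π (τ' l)) : τ = τ' := by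
  obtain ⟨n, hn, hm, hmn, hexp, hper⟩ := isBig_data hl
  obtain ⟨p, hp, hπ⟩ := hexp π
  obtain ⟨t, ht, hτ⟩ := hexp τ
  obtain ⟨u, hu, hτ'⟩ := hexp τ'
  have hred : ∀ i : ℕ, l ^ 2 ^ i = l ^ 2 ^ (i % n) := by
    intro i
    induction i using Nat.strong_induction_on with
    | _ i ih =>
      by_cases hi : i < n
      · rw [Nat.mod_eq_of_lt hi]
      · rw [Nat.mod_eq_sub_mod (by omega), ← ih (i - n) (by omega)]
        conv_lhs => rw [show i = i - n + n by omega, pow_add, pow_mul, hper]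
  rw [hπ, hτ, hτ', hπ, ← pow_mul, ← pow_add, hred (u + p) |> fun e => (by rw [← e, pow_add] :
    l ^ (2 ^ u * 2 ^ p) = l ^ 2 ^ ((u + p) % n)), ← pow_succ'] at h
  have := eq_of_modEq_ratio hn hm hmn hp ht hu (by
    rw [Nat.add_comm 1, Nat.add_comm p u]; exact pow_eq_pow_modEq hl h)
  exact RingEquiv.ext fun x => by rw [hτ, hτ', this]

/-- An alternating biadditive map scaled by a big multiplier vanishes. -/
theorem alt_zero {l : F} (hl : IsBig l) (B : F →+ F →+ F)
    (heq : ∀ x y, B (l * x) (l * y) = l * B x y) (halt : ∀ x, B x x = 0) : ∀ x y, B x y = 0 := by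
  classical
  haveI : Fact (Nat.Prime 2) := ⟨Nat.prime_two⟩
  obtain ⟨d, hd⟩ := FieldMaps.exists_coeff₂ 2 B
  have h0 : (fun σ τ => d σ τ * (σ l * τ l - l)) = (0 : (F ≃+* F) → (F ≃+* F) → F) := by
    refine FieldMaps.coeff₂_unique fun x y => ?_
    have h := sub_eq_zero.2 (heq x y)
    rw [hd, hd, Finset.mul_sum] at h
    simp only [Finset.mul_sum, ← Finset.sum_sub_distrib, map_mul] at h
    rw [← h]
    refine Finset.sum_congr rfl fun σ _ => Finset.sum_congr rfl fun τ _ => ?_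
    ring
  have hdiag : ∀ σ τ, σ ≠ τ → d σ τ = 0 := fun σ τ hne =>
    (mul_eq_zero.1 (congrFun (congrFun h0 σ) τ)).resolve_right fun h =>
      hne (eq_of_mul_eq hl (sub_eq_zero.1 h))
  have hB : ∀ x y, B x y = ∑ σ, d σ σ * σ (x * y) := by
    intro x y
    rw [hd]
    refine Finset.sum_congr rfl fun σ _ => ?_
    rw [Finset.sum_eq_single σ (fun τ _ hne => by rw [hdiag σ τ hne.symm, zero_mul]) (by simp),
      map_mul]
  intro x y
  obtain ⟨w, hw⟩ := (frobeniusEquiv F 2).surjective (x * y)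
  rw [frobeniusEquiv_apply, frobenius_def, pow_two] at hw
  rw [hB, ← hw, ← hB, halt]

/-- Two additive groups of coefficients cannot parametrise all non-zero values by pairs. -/
theorem no_paired_values {τ τ' : F ≃+* F} (h1 : τ ≠ RingEquiv.refl F) (h1' : τ' ≠ RingEquiv.refl F)
    (hF : 2 < Fintype.card F) (S S' : AddSubgroup F) (G : F → F → F)
    (hG : ∀ s ∈ S, ∀ s' ∈ S', s ≠ 0 → s' ≠ 0 →
      G s s' ≠ 0 ∧ s * τ (G s s') = G s s' ∧ s' * τ' (G s s') = G s s')
    (hsurj : ∀ g : F, g ≠ 0 → ∃ s ∈ S, ∃ s' ∈ S', s ≠ 0 ∧ s' ≠ 0 ∧ G s s' = g) : False := by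
  classical
  have hinj : ∀ {ρ : F ≃+* F}, ρ ≠ RingEquiv.refl F → ∀ (T : AddSubgroup F), Nat.card T = 2 →
      (∀ g : F, g ≠ 0 → ∃ t ∈ T, t ≠ 0 ∧ t * ρ g = g) → False := by
    intro ρ hρ T hT hall
    refine hρ (RingEquiv.ext fun g => ?_)
    by_cases hg : g = 0
    · simp [hg]
    obtain ⟨t, ht, ht0, h⟩ := hall g hg
    obtain ⟨t', ht', ht0', h'⟩ := hall 1 one_ne_zero
    rw [map_one, mul_one] at h'
    obtain ⟨x, y, -, huniv⟩ := Nat.card_eq_two_iff.1 hT
    have hel : ∀ z : T, z = x ∨ z = y := fun z => by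
      have := (Set.ext_iff.1 huniv z).2 (Set.mem_univ z)
      simpa using this
    have key : ∀ a ∈ T, ∀ b ∈ T, a ≠ 0 → b ≠ 0 → a = b := by
      intro a ha b hb ha0 hb0
      rcases hel 0 with h0 | h0 <;> rcases hel ⟨a, ha⟩ with h1 | h1 <;>
        rcases hel ⟨b, hb⟩ with h2 | h2 <;>
        first
          | exact congrArg Subtype.val (h1.trans h2.symm)
          | exact absurd (congrArg Subtype.val (h1.trans h0.symm)) ha0
          | exact absurd (congrArg Subtype.val (h2.trans h0.symm)) hb0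
    rw [key t ht t' ht' ht0 ht0', h', one_mul] at h
    exact h
  let f : {s : S // s ≠ 0} × {s : S' // s ≠ 0} → {g : F // g ≠ 0} := fun p =>
    ⟨G p.1.1.1 p.2.1.1, (hG _ p.1.1.2 _ p.2.1.2 (fun h => p.1.2 (Subtype.ext h))
      (fun h => p.2.2 (Subtype.ext h))).1⟩
  have hf : Function.Bijective f := by
    refine ⟨fun p p' h => ?_, fun g => ?_⟩
    · have h' : G p.1.1.1 p.2.1.1 = G p'.1.1.1 p'.2.1.1 := congrArg Subtype.val h
      obtain ⟨hne, a1, a2⟩ := hG _ p.1.1.2 _ p.2.1.2 (fun h => p.1.2 (Subtype.ext h))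
        (fun h => p.2.2 (Subtype.ext h))
      obtain ⟨-, b1, b2⟩ := hG _ p'.1.1.2 _ p'.2.1.2 (fun h => p'.1.2 (Subtype.ext h))
        (fun h => p'.2.2 (Subtype.ext h))
      rw [← h'] at b1 b2
      exact Prod.ext
        (Subtype.ext (Subtype.ext (mul_right_cancel₀ (by simpa using hne) (a1.trans b1.symm))))
        (Subtype.ext (Subtype.ext (mul_right_cancel₀ (by simpa using hne) (a2.trans b2.symm))))
    · obtain ⟨s, hs, s', hs', h0, h0', h⟩ := hsurj g g.2
      exact ⟨(⟨⟨s, hs⟩, fun e => h0 (congrArg Subtype.val e)⟩,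
        ⟨⟨s', hs'⟩, fun e => h0' (congrArg Subtype.val e)⟩), Subtype.ext h⟩
  have hsub : ∀ T : AddSubgroup F, Nat.card {s : T // s ≠ 0} + 1 = Nat.card T := fun T => by
    rw [← Finite.card_option]
    exact Nat.card_congr (Equiv.optionSubtypeNe (0 : T))
  have hprod := Nat.card_eq_of_bijective f hf
  rw [Nat.card_prod, Nat.card_eq_fintype_card (α := {g : F // g ≠ 0}), Fintype.card_subtype_compl,
    Fintype.card_subtype_eq] at hprod
  obtain ⟨n, hn, hcard, -, -⟩ := exists_exponents (F := F)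
  have hpow : ∀ T : AddSubgroup F, ∃ k, Nat.card T = 2 ^ k := fun T => by
    have h := T.card_addSubgroup_dvd_card
    rw [Nat.card_eq_fintype_card (α := F), hcard] at h
    obtain ⟨k, -, hk⟩ := (Nat.dvd_prime_pow Nat.prime_two).1 h
    exact ⟨k, hk⟩
  obtain ⟨k, hk⟩ := hpow S
  obtain ⟨k', hk'⟩ := hpow S'
  have e1 := hsub S
  have e2 := hsub S'
  rw [hk] at e1
  rw [hk'] at e2
  rcases k with _ | _ | k
  · rw [pow_zero] at e1
    rw [show Nat.card {s : S // s ≠ 0} = 0 by omega, zero_mul] at hprod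
    omega
  · exact hinj h1 S hk fun g hg => by
      obtain ⟨s, hs, s', hs', h0, h0', h⟩ := hsurj g hg
      exact ⟨s, hs, h0, h ▸ (hG s hs s' hs' h0 h0').2.1⟩
  rcases k' with _ | _ | k'
  · rw [pow_zero] at e2
    rw [show Nat.card {s : S' // s ≠ 0} = 0 by omega, mul_zero] at hprod
    omega
  · exact hinj h1' S' hk' fun g hg => by
      obtain ⟨s, hs, s', hs', h0, h0', h⟩ := hsurj g hg
      exact ⟨s', hs', h0', h ▸ (hG s hs s' hs' h0 h0').2.2⟩
  rcases n with _ | _ | n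
  · omega
  · rw [hcard] at hF; norm_num at hF
  rw [hcard] at hprod
  have hfull := hprod
  obtain ⟨a, ha⟩ : (4 : ℕ) ∣ 2 ^ (k + 1 + 1) := Dvd.intro (2 ^ k) (by ring)
  obtain ⟨b, hb⟩ : (4 : ℕ) ∣ 2 ^ (k' + 1 + 1) := Dvd.intro (2 ^ k') (by ring)
  obtain ⟨c, hc⟩ : (4 : ℕ) ∣ 2 ^ (n + 1 + 1) := Dvd.intro (2 ^ n) (by ring)
  have hc0 : 0 < 2 ^ (n + 1 + 1) := Nat.two_pow_pos _
  rw [ha] at e1
  rw [hb] at e2
  rw [hc] at hfull hc0
  have hA : Nat.card {s : S // s ≠ 0} % 4 = 3 := by omega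
  have hB : Nat.card {s : S' // s ≠ 0} % 4 = 3 := by omega
  have hC : (Nat.card {s : S // s ≠ 0} * Nat.card {s : S' // s ≠ 0}) % 4 = 1 := by
    rw [Nat.mul_mod, hA, hB]
  omega

/-- Automorphisms commute. -/
theorem aut_comm (π τ : F ≃+* F) (x : F) : π (τ x) = τ (π x) := by
  obtain ⟨n, -, -, -, hexp⟩ := exists_exponents (F := F)
  obtain ⟨i, -, hπ⟩ := hexp π
  obtain ⟨j, -, hτ⟩ := hexp τ
  rw [hπ, hτ, hπ, hτ, ← pow_mul, ← pow_mul, Nat.mul_comm]

end Cfsg.Agent.Suzuki2S
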