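import Cfsg.Agent.S3360
import Cfsg.Agent.Suzuki2S.Semilinear
import Cfsg.Agent.PGroup.Basic
import Mathlib.Algebra.Module.ZMod

/-!
# 2-groups with a solvable group of automorphisms transitive on the involutions

The involutions are central and carry a field structure on which one of the automorphisms is
multiplication by a big multiplier.
-/

set_option autoImplicit false
set_option linter.unusedSectionVars false
set_option linter.style.haveILetI false

namespace Cfsg.Agent.Suzuki2S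

variable {P : Type*} [Group P]

/-- A non-abelian 2-group with a solvable group of automorphisms transitive on the involutions. -/
structure Data (Y : Subgroup (MulAut P)) : Prop where
  finite : Finite P
  pgroup : IsPGroup 2 P
  noncomm : ∃ x y : P, x * y ≠ y * x
  two : ∃ x y : P, x ≠ y ∧ x ≠ 1 ∧ x * x = 1 ∧ y ≠ 1 ∧ y * y = 1
  solvable : Group.IsSolvable Y
  trans : ∀ x y : P, x ≠ 1 → x * x = 1 → y ≠ 1 → y * y = 1 → ∃ g ∈ Y, g x = y

variable {Y : Subgroup (MulAut P)}

variable (hd : Data Y)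
include hd

theorem invol_central {x : P} (hx : x * x = 1) : ∀ y : P, x * y = y * x := by
  haveI := hd.finite
  haveI : Fact (Nat.Prime 2) := ⟨Nat.prime_two⟩
  haveI : Nontrivial P := by
    obtain ⟨a, b, h⟩ := hd.noncomm
    exact ⟨⟨a * b, b * a, h⟩⟩
  by_cases hx1 : x = 1
  · intro y; rw [hx1, one_mul, mul_one]
  haveI := hd.pgroup.center_nontrivial
  obtain ⟨z, hz⟩ := exists_prime_orderOf_dvd_card' (G := Subgroup.center P) 2
    ((hd.pgroup.to_subgroup _).card_eq_or_dvd.resolve_left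
      fun h => (Finite.one_lt_card (α := Subgroup.center P)).ne' h)
  have hz1 : (z : P) ≠ 1 := fun h => by
    rw [show z = 1 from Subtype.ext h, orderOf_one] at hz
    exact absurd hz (by norm_num)
  have hz2 : (z : P) * z = 1 := by
    have := pow_orderOf_eq_one z
    rw [hz, pow_two] at this
    exact congrArg Subtype.val this
  obtain ⟨g, -, rfl⟩ := hd.trans _ x hz1 hz2 hx1 hx
  intro y
  obtain ⟨y', rfl⟩ := g.surjective y
  rw [← map_mul, ← map_mul, Subgroup.mem_center_iff.1 z.2 y']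

theorem invol_mul {x y : P} (hx : x * x = 1) (hy : y * y = 1) : x * y * (x * y) = 1 := by
  rw [mul_assoc, ← mul_assoc y, ← invol_central hd hx y, mul_assoc, hy, mul_one, hx]

/-- The subgroup of elements of order at most two. -/
def invSubgroup : Subgroup P where
  carrier := {x | x * x = 1}
  one_mem' := mul_one 1
  mul_mem' := fun hx hy => invol_mul hd hx hy
  inv_mem' := fun {x} hx => by
    show x⁻¹ * x⁻¹ = 1
    rw [← mul_inv_rev, show x * x = 1 from hx, inv_one]

/-- The field frame on the involutions. -/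
theorem exists_frame :
    ∃ (F : Type) (_ : Field F) (_ : Fintype F) (_ : CharP F 2) (σ : MulAut P) (pre : F → P)
      (ε : P → F) (l : F), σ ∈ Y ∧ IsBig l ∧ l ≠ 1 ∧ (∀ x, pre x * pre x = 1) ∧
      (∀ x y, pre (x + y) = pre x * pre y) ∧ (∀ u : P, u * u = 1 → pre (ε u) = u) ∧
      (∀ x, ε (pre x) = x) ∧ (∀ x, pre (l * x) = σ (pre x)) ∧
      ∀ g ∈ Y, ∃ (a : F) (π : F ≃+* F), a ≠ 0 ∧ ∀ x, g (pre x) = pre (a * π x) := by
  haveI := hd.finite
  classical
  haveI : Fact (Nat.Prime 2) := ⟨Nat.prime_two⟩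
  let I := invSubgroup hd
  letI : CommGroup I :=
    { (inferInstance : Group I) with
      mul_comm := fun a b => Subtype.ext (invol_central hd a.2 b) }
  have hext : ∀ {a b : Additive I}, (Additive.toMul a : I).1 = (Additive.toMul b : I).1 → a = b :=
    fun h => Additive.toMul.injective (Subtype.ext h)
  letI : Module (ZMod 2) (Additive I) := AddCommGroup.zmodModule fun a => by
    rw [two_nsmul]; exact hext (Additive.toMul a).2
  obtain ⟨x₀, y₀, hxy, hx1, hx2, hy1, hy2⟩ := hd.two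
  haveI : Nontrivial (Additive I) := ⟨Additive.ofMul ⟨x₀, hx2⟩, 0,
    fun h => hx1 (congrArg (fun a : Additive I => (Additive.toMul a).1) h)⟩
  let ρ : Y →* (Additive I ≃ₗ[ZMod 2] Additive I) :=
    { toFun := fun g =>
        ({ toFun := fun a => Additive.ofMul ⟨g.1 (Additive.toMul a).1, by
            show g.1 _ * g.1 _ = 1
            rw [← map_mul, show (Additive.toMul a).1 * (Additive.toMul a).1 = 1 from
              (Additive.toMul a).2, map_one]⟩
           invFun := fun a => Additive.ofMul ⟨g.1.symm (Additive.toMul a).1, by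
            show g.1.symm _ * g.1.symm _ = 1
            rw [← map_mul, show (Additive.toMul a).1 * (Additive.toMul a).1 = 1 from
              (Additive.toMul a).2, map_one]⟩
           left_inv := fun a => hext (g.1.symm_apply_apply _)
           right_inv := fun a => hext (g.1.apply_symm_apply _)
           map_add' := fun a b => hext (map_mul g.1 _ _) } : Additive I ≃+ Additive I).toLinearEquiv
          fun c a => ZMod.map_smul (AddEquiv.toAddMonoidHom _) c a
      map_one' := LinearEquiv.ext fun a => hext rfl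
      map_mul' := fun g h => LinearEquiv.ext fun a => hext rfl }
  have hρ : ∀ (g : Y) (a : Additive I),
      (Additive.toMul (ρ g a) : I).1 = g.1 (Additive.toMul a).1 := fun g a => rfl
  haveI : Finite (MulAut P) := Finite.of_injective _ (DFunLike.coe_injective (F := MulAut P))
  haveI := hd.solvable
  haveI : Finite ρ.range := Finite.of_surjective _ ρ.rangeRestrict_surjective
  have hsol : Group.IsSolvable ρ.range :=
    Group.isSolvable_of_surjective ρ.rangeRestrict_surjective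
  have htr : ∀ v w : Additive I, v ≠ 0 → w ≠ 0 → ∃ g : Y, ρ g v = w := by
    intro v w hv hw
    obtain ⟨g, hg, h⟩ := hd.trans _ _ (fun h => hv (hext h)) (Additive.toMul v).2
      (fun h => hw (hext h)) (Additive.toMul w).2
    exact ⟨⟨g, hg⟩, hext h⟩
  have hcases := S3360.result 2 hsol ρ.range.subtype Subtype.val_injective fun v w hv hw =>
    (htr v w hv hw).elim fun g hg => ⟨⟨ρ g, g, rfl⟩, hg⟩
  rcases hcases with ⟨F, instF, instFt, e, he⟩ | h
  swap
  · exfalso
    obtain ⟨k, hk⟩ := IsPGroup.iff_card.1 (hd.pgroup.to_subgroup I)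
    have h' : Nat.card (Additive I) = 2 ^ k := hk
    rw [h'] at h
    rcases k with _ | k
    · simp at h
    · simp only [Set.mem_insert_iff, Set.mem_singleton_iff] at h
      rw [pow_succ] at h
      omega
  letI := instF
  letI := instFt
  have htwo : ∀ x : F, x + x = 0 := fun x => by
    obtain ⟨a, rfl⟩ := e.surjective x
    rw [← map_add, ← map_zero e]
    exact congrArg e (hext (Additive.toMul a).2)
  haveI : CharP F 2 :=
    CharTwo.of_one_ne_zero_of_two_eq_zero one_ne_zero (by rw [← one_add_one_eq_two, htwo])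
  let act : Y → F → F := fun g x => e (ρ g (e.symm x))
  obtain ⟨g, l, hl, hgl⟩ := exists_big act
    (fun g h x => by simp only [act, map_mul, e.symm_apply_apply]; rfl)
    (fun x => by simp [act])
    (fun g => by
      obtain ⟨a, π, h⟩ := he ⟨ρ g, g, rfl⟩
      exact ⟨a, π, fun x => (h (e.symm x)).trans (by rw [e.apply_symm_apply])⟩)
    (fun x y hx hy => by
      obtain ⟨g, hg⟩ := htr (e.symm x) (e.symm y) (fun h => hx (by simpa using congrArg e h))
        (fun h => hy (by simpa using congrArg e h))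
      exact ⟨g, by simp only [act, hg, e.apply_symm_apply]⟩)
  have hl1 : l ≠ 1 := by
    intro h
    obtain ⟨n, hn, hcard, haut, -⟩ := exists_exponents (F := F)
    have h2 := hl.2
    rw [h, orderOf_one, one_mul, hcard, haut] at h2
    have h3 := Nat.le_of_dvd hn h2
    have h4 : n < 2 ^ n := Nat.lt_two_pow_self
    have h5 : 2 < Fintype.card F := by
      rw [Fintype.two_lt_card_iff]
      refine ⟨0, e (Additive.ofMul ⟨x₀, hx2⟩), e (Additive.ofMul ⟨y₀, hy2⟩), ?_, ?_, ?_⟩
      · intro h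
        exact hx1 (congrArg (fun a : Additive I => (Additive.toMul a).1)
          (e.injective (h.symm.trans (map_zero e).symm)))
      · intro h
        exact hy1 (congrArg (fun a : Additive I => (Additive.toMul a).1)
          (e.injective (h.symm.trans (map_zero e).symm)))
      · intro h
        exact hxy (congrArg (fun a : Additive I => (Additive.toMul a).1) (e.injective h))
    rw [hcard] at h5
    rcases Nat.lt_or_ge n 2 with h6 | h6
    · interval_cases n; simp at h5
    · have h7 : n + 1 < 2 ^ n := by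
        obtain ⟨j, rfl⟩ : ∃ j, n = j + 2 := ⟨n - 2, by omega⟩
        have h8 : j < 2 ^ j := Nat.lt_two_pow_self
        rw [pow_add]
        omega
      omega
  let pre : F → P := fun x => (Additive.toMul (e.symm x)).1
  let ε : P → F := fun u => if h : u * u = 1 then e (Additive.ofMul ⟨u, h⟩) else 0
  have hpreI : ∀ x, pre x * pre x = 1 := fun x => (Additive.toMul (e.symm x)).2
  have hε : ∀ u : P, u * u = 1 → pre (ε u) = u := fun u hu => by simp [ε, dif_pos hu, pre]
  refine ⟨F, instF, instFt, inferInstance, g.1, pre, ε, l, g.2, hl, hl1, hpreI,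
    fun x y => by simp only [pre, map_add]; rfl, hε, fun x => ?_, fun x => ?_, fun g hg => ?_⟩
  · simp only [ε, dif_pos (hpreI x)]
    exact e.apply_symm_apply x
  · show (Additive.toMul (e.symm (l * x))).1 = _
    rw [← hgl x]
    simp only [act, e.symm_apply_apply]
    exact hρ g _
  · obtain ⟨a, π, h⟩ := he ⟨ρ ⟨g, hg⟩, ⟨g, hg⟩, rfl⟩
    have h1 : ∀ x, g (pre x) = pre (a * π x) := fun x => by
      have h2 := h (e.symm x)
      rw [e.apply_symm_apply] at h2
      show _ = (Additive.toMul (e.symm (a * π x))).1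
      rw [← h2, e.symm_apply_apply]
      exact (hρ ⟨g, hg⟩ _).symm
    refine ⟨a, π, fun ha => ?_, h1⟩
    have h2 := h1 1
    rw [ha, zero_mul, show pre 0 = 1 by simp [pre], EmbeddingLike.map_eq_one_iff] at h2
    have h3 := congrArg ε h2
    simp only [ε, dif_pos (hpreI 1), dif_pos (one_mul (1 : P))] at h3
    have h4 : e (Additive.ofMul ⟨pre 1, hpreI 1⟩) = 1 := e.apply_symm_apply 1
    exact one_ne_zero (h4.symm.trans (h3.trans (map_zero e)))

/-- An equivariant alternating biadditive map on the involutions, given on a cover `N`, is trivial. -/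
theorem alt_trivial (N : Subgroup P) (hN : ∀ g ∈ Y, ∀ x ∈ N, g x ∈ N) (q : P → P) (T : P → P → P)
    (hqI : ∀ y ∈ N, q y * q y = 1) (hq : ∀ y ∈ N, ∀ y' ∈ N, q (y * y') = q y * q y')
    (hqσ : ∀ g ∈ Y, ∀ y ∈ N, q (g y) = g (q y)) (honto : ∀ u : P, u * u = 1 → ∃ y ∈ N, q y = u)
    (hTI : ∀ y ∈ N, ∀ u : P, u * u = 1 → T y u * T y u = 1)
    (hTl : ∀ y ∈ N, ∀ y' ∈ N, ∀ u : P, u * u = 1 → T (y * y') u = T y u * T y' u)
    (hTr : ∀ y ∈ N, ∀ u v : P, u * u = 1 → v * v = 1 → T y (u * v) = T y u * T y v)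
    (hTσ : ∀ g ∈ Y, ∀ y ∈ N, ∀ u : P, u * u = 1 → T (g y) (g u) = g (T y u))
    (hker : ∀ y ∈ N, ∀ u : P, u * u = 1 → q y = 1 → T y u = 1)
    (halt : ∀ y ∈ N, T y (q y) = 1) : ∀ y ∈ N, ∀ u : P, u * u = 1 → T y u = 1 := by
  haveI := hd.finite
  obtain ⟨F, _, _, _, σ, pre, ε, l, hσY, hl, -, hpreI, hpreadd, hε, hεpre, hpreσ, -⟩ := exists_frame hd
  choose sec hsecN hsec using honto
  have hinv : ∀ y ∈ N, ∀ y' ∈ N, ∀ u : P, u * u = 1 → q y = q y' → T y u = T y' u := by
    intro y hy y' hy' u hu h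
    have h1 : q (y * y'⁻¹) = 1 := by
      have h3 := hq (y * y'⁻¹) (N.mul_mem hy (N.inv_mem hy')) y' hy'
      rw [inv_mul_cancel_right, h] at h3
      exact right_eq_mul.1 h3
    have h2 := hTl (y * y'⁻¹) (N.mul_mem hy (N.inv_mem hy')) y' hy' u hu
    rw [inv_mul_cancel_right, hker _ (N.mul_mem hy (N.inv_mem hy')) u hu h1, one_mul] at h2
    exact h2
  have hpre0 : pre 0 = 1 := by
    have h := hpreadd 0 0
    rw [add_zero] at h
    exact right_eq_mul.1 h
  have hpreinj : Function.Injective pre := fun x y h => by rw [← hεpre x, h, hεpre]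
  let w : F → P := fun x => sec (pre x) (hpreI x)
  have hw : ∀ x, w x ∈ N := fun x => hsecN _ _
  have hqw : ∀ x, q (w x) = pre x := fun x => hsec _ _
  have hval : ∀ x y, pre (ε (T (w x) (pre y))) = T (w x) (pre y) := fun x y =>
    hε _ (hTI _ (hw x) _ (hpreI y))
  let B : F →+ F →+ F := AddMonoidHom.mk'
    (fun x => AddMonoidHom.mk' (fun y => ε (T (w x) (pre y))) fun y y' => hpreinj (by
      rw [hpreadd (ε _) (ε _), hval, hval, hval, hpreadd,
        hTr _ (hw x) _ _ (hpreI y) (hpreI y')]))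
    fun x x' => AddMonoidHom.ext fun y => hpreinj (by
      simp only [AddMonoidHom.mk'_apply, AddMonoidHom.add_apply]
      rw [hpreadd (ε _) (ε _), hval, hval, hval, ← hTl _ (hw x) _ (hw x') _ (hpreI y)]
      exact hinv _ (hw _) _ (N.mul_mem (hw x) (hw x')) _ (hpreI y)
        (by rw [hqw, hq _ (hw x) _ (hw x'), hqw, hqw, hpreadd]))
  have hB := alt_zero hl B
    (fun x y => hpreinj (by
      simp only [B, AddMonoidHom.mk'_apply]
      rw [hpreσ (ε _), hval, hval, hpreσ, ← hTσ σ hσY _ (hw x) _ (hpreI y)]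
      exact hinv _ (hw _) _ (hN σ hσY _ (hw x)) _ (by rw [← map_mul, hpreI, map_one])
        (by rw [hqw, hqσ σ hσY _ (hw x), hqw, hpreσ])))
    (fun x => hpreinj (by
      simp only [B, AddMonoidHom.mk'_apply]
      rw [hval, hpre0]
      have h := halt _ (hw x)
      rwa [hqw] at h))
  intro y hy u hu
  have h := congrArg pre (hB (ε (q y)) (ε u))
  simp only [B, AddMonoidHom.mk'_apply] at h
  rw [hval, hpre0, hε u hu] at h
  rw [← hinv _ (hw _) y hy u hu (by rw [hqw, hε _ (hqI y hy)])]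
  exact h

/-- A subgroup that is abelian, normal, invariant and contains the centre. -/
structure Good (A : Subgroup P) : Prop where
  comm : ∀ a ∈ A, ∀ b ∈ A, a * b = b * a
  conj : ∀ p : P, ∀ a ∈ A, p⁻¹ * a * p ∈ A
  inv : ∀ g ∈ Y, ∀ a ∈ A, g a ∈ A
  center : Subgroup.center P ≤ A

theorem center_good : Good (Y := Y) (Subgroup.center P) :=
  ⟨fun a ha b _ => (Subgroup.mem_center_iff.1 ha b).symm,
    fun p a ha => by rwa [mul_assoc, ← Subgroup.mem_center_iff.1 ha p, inv_mul_cancel_left],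
    fun g _ a ha => Subgroup.mem_center_iff.2 fun y => by
      obtain ⟨y', rfl⟩ := g.surjective y
      rw [← map_mul, ← map_mul, Subgroup.mem_center_iff.1 ha y'], le_rfl⟩

theorem mem_A_of_sq {A : Subgroup P} (hA : Good (Y := Y) A) {x : P} (hx : x * x = 1) : x ∈ A :=
  hA.center (Subgroup.mem_center_iff.2 fun y => (invol_central hd hx y).symm)

/-- A normal subgroup `C` above a good `A` contains an element central of order two modulo `A`. -/
theorem exists_step {A : Subgroup P} (hA : Good (Y := Y) A) (C : Subgroup P) (hC : C.Normal)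
    (hlt : ∃ x ∈ C, x ∉ A) :
    ∃ y ∈ C, y ∉ A ∧ y * y ∈ A ∧ ∀ p : P, y⁻¹ * p⁻¹ * y * p ∈ A := by
  haveI := hd.finite
  haveI : Fact (Nat.Prime 2) := ⟨Nat.prime_two⟩
  haveI hAn : A.Normal := ⟨fun a ha p => by simpa using hA.conj p⁻¹ a ha⟩
  haveI : (C.map (QuotientGroup.mk' A)).Normal :=
    hC.map _ (QuotientGroup.mk'_surjective A)
  have hne : C.map (QuotientGroup.mk' A) ≠ ⊥ := by
    obtain ⟨x, hx, hxA⟩ := hlt
    intro h
    have h1 : QuotientGroup.mk' A x ∈ C.map (QuotientGroup.mk' A) := Subgroup.mem_map_of_mem _ hx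
    rw [h, Subgroup.mem_bot, QuotientGroup.mk'_apply, QuotientGroup.eq_one_iff] at h1
    exact hxA h1
  set M := C.map (QuotientGroup.mk' A) ⊓ Subgroup.center (P ⧸ A) with hM
  have hMne : M ≠ ⊥ := PGroup.inf_center_ne_bot (hd.pgroup.to_quotient A) _ hne
  obtain ⟨w, hw⟩ := exists_prime_orderOf_dvd_card' (G := M) 2
    (((hd.pgroup.to_quotient A).to_subgroup M).card_eq_or_dvd.resolve_left
      fun h => hMne (Subgroup.card_eq_one.1 h))
  obtain ⟨⟨y, hy, hyw⟩, hwc⟩ := Subgroup.mem_inf.1 w.2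
  rw [QuotientGroup.mk'_apply] at hyw
  refine ⟨y, hy, fun hyA => ?_, ?_, fun p => ?_⟩
  · rw [(QuotientGroup.eq_one_iff y).2 hyA] at hyw
    rw [show w = 1 from Subtype.ext hyw.symm, orderOf_one] at hw
    exact absurd hw (by norm_num)
  · have h1 := congrArg Subtype.val (pow_orderOf_eq_one w)
    rw [hw, SubgroupClass.coe_pow, ← hyw, pow_two, ← QuotientGroup.mk_mul,
      OneMemClass.coe_one, QuotientGroup.eq_one_iff] at h1
    exact h1
  · have h1 := Subgroup.mem_center_iff.1 hwc (p : P ⧸ A)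
    rw [← hyw, ← QuotientGroup.mk_mul, ← QuotientGroup.mk_mul, QuotientGroup.eq] at h1
    have e : y⁻¹ * p⁻¹ * y * p = ((p * y)⁻¹ * (y * p)) := by group
    rw [e]
    exact h1

/-- The elements of order two in the centre of `P` modulo a good subgroup, inside `C`. -/
def stepSubgroup {A : Subgroup P} (hA : Good (Y := Y) A) (C : Subgroup P) : Subgroup P where
  carrier := {y | y ∈ C ∧ y * y ∈ A ∧ ∀ p : P, y⁻¹ * p⁻¹ * y * p ∈ A}
  one_mem' := ⟨C.one_mem, by simp [A.one_mem], fun p => by simp [A.one_mem]⟩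
  mul_mem' := by
    rintro y y' ⟨hy, hy2, hyc⟩ ⟨hy', hy2', hyc'⟩
    refine ⟨C.mul_mem hy hy', ?_, fun p => ?_⟩
    · have e : y * y' * (y * y') = y * y * (y'⁻¹⁻¹ * (y'⁻¹ * y⁻¹ * y' * y) * y'⁻¹) * (y' * y') := by
        group
      rw [e]
      exact A.mul_mem (A.mul_mem hy2 (hA.conj _ _ (hyc' y))) hy2'
    · have e : (y * y')⁻¹ * p⁻¹ * (y * y') * p =
          y'⁻¹ * (y⁻¹ * p⁻¹ * y * p) * y' * (y'⁻¹ * p⁻¹ * y' * p) := by group
      rw [e]
      exact A.mul_mem (hA.conj _ _ (hyc p)) (hyc' p)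
  inv_mem' := by
    rintro y ⟨hy, hy2, hyc⟩
    refine ⟨C.inv_mem hy, ?_, fun p => ?_⟩
    · rw [← mul_inv_rev]; exact A.inv_mem hy2
    · have e : y⁻¹⁻¹ * p⁻¹ * y⁻¹ * p = y⁻¹⁻¹ * (y⁻¹ * p⁻¹ * y * p)⁻¹ * y⁻¹ := by group
      rw [e]
      exact hA.conj y⁻¹ _ (A.inv_mem (hyc p))

theorem mem_stepSubgroup {A : Subgroup P} (hA : Good (Y := Y) A) {C : Subgroup P} {y : P} :
    y ∈ stepSubgroup hA C ↔ y ∈ C ∧ y * y ∈ A ∧ ∀ p : P, y⁻¹ * p⁻¹ * y * p ∈ A := Iff.rfl

theorem stepSubgroup_inv {A : Subgroup P} (hA : Good (Y := Y) A) {C : Subgroup P}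
    (hC : ∀ g ∈ Y, ∀ x ∈ C, g x ∈ C) {g : MulAut P} (hg : g ∈ Y) {y : P}
    (hy : y ∈ stepSubgroup hA C) : g y ∈ stepSubgroup hA C := by
  refine ⟨hC g hg y hy.1, by rw [← map_mul]; exact hA.inv g hg _ hy.2.1, fun p => ?_⟩
  obtain ⟨p', rfl⟩ := g.surjective p
  simpa using hA.inv g hg _ (hy.2.2 p')

theorem le_stepSubgroup {A : Subgroup P} (hA : Good (Y := Y) A) {C : Subgroup P} (hC : A ≤ C) :
    A ≤ stepSubgroup hA C := fun a ha =>
  ⟨hC ha, A.mul_mem ha ha, fun p => by
    rw [mul_assoc _ a p, mul_assoc _ p⁻¹]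
    exact A.mul_mem (A.inv_mem ha) (by rw [← mul_assoc]; exact hA.conj p a ha)⟩

/-- The root map: every involution is a `2 ^ j`-th power in a good subgroup of exponent `2 ^ e`. -/
theorem exists_root {A : Subgroup P} (hA : Good (Y := Y) A) {e : ℕ}
    (he : ∀ a ∈ A, a ^ 2 ^ e = 1) (he' : ∃ a ∈ A, a ^ 2 ^ (e - 1) ≠ 1) (he1 : 1 ≤ e) :
    ∀ j, j + 1 ≤ e → ∀ u : P, u * u = 1 → ∃ d ∈ A, d ^ 2 ^ j = u := by
  obtain ⟨a, ha, hne⟩ := he'
  intro j hj u hu
  by_cases hu1 : u = 1
  · exact ⟨1, A.one_mem, by rw [one_pow, hu1]⟩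
  have h2 : a ^ 2 ^ (e - 1) * a ^ 2 ^ (e - 1) = 1 := by
    rw [← pow_add, ← two_mul, ← pow_succ', Nat.sub_add_cancel he1, he a ha]
  obtain ⟨g, hg, rfl⟩ := hd.trans _ u hne h2 hu1 hu
  refine ⟨(g a) ^ 2 ^ (e - 1 - j), A.pow_mem (hA.inv g hg a ha) _, ?_⟩
  rw [← pow_mul, ← pow_add, map_pow, Nat.sub_add_cancel (by omega)]

theorem exists_sqrt {A : Subgroup P} (hA : Good (Y := Y) A) {e : ℕ}
    (he : ∀ a ∈ A, a ^ 2 ^ e = 1) (he' : ∃ a ∈ A, a ^ 2 ^ (e - 1) ≠ 1) (he1 : 1 ≤ e) :
    ∀ j, j + 1 ≤ e → ∀ a ∈ A, a ^ 2 ^ j = 1 → ∃ b ∈ A, b * b = a := by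
  intro j
  induction j with
  | zero => intro _ a _ h; exact ⟨1, A.one_mem, by simpa using h.symm⟩
  | succ j ih =>
    intro hj a ha h
    have hu : a ^ 2 ^ j * a ^ 2 ^ j = 1 := by rw [← pow_add, ← two_mul, ← pow_succ']; exact h
    obtain ⟨d, hdA, hd'⟩ := exists_root hd hA he he' he1 (j + 1) hj _ hu
    have hd2 : (d * d) ∈ A := A.mul_mem hdA hdA
    have hc : Commute a (d * d) := hA.comm _ ha _ hd2
    obtain ⟨b, hb, hbb⟩ := ih (by omega) (a * (d * d)⁻¹) (A.mul_mem ha (A.inv_mem hd2)) (by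
      rw [hc.inv_right.mul_pow, inv_pow, ← pow_two, ← pow_mul, ← pow_succ', hd', mul_inv_cancel])
    refine ⟨b * d, A.mul_mem hb hdA, ?_⟩
    calc b * d * (b * d) = b * (d * b) * d := by simp only [mul_assoc]
      _ = b * b * (d * d) := by rw [hA.comm d hdA b hb]; simp only [mul_assoc]
      _ = a := by rw [hbb, inv_mul_cancel_right]

end Cfsg.Agent.Suzuki2S
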