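import Cfsg.Agent.Suzuki2S.Central

/-!
# Suzuki 2-groups: conclusion of Higman's first part
-/

set_option autoImplicit false
set_option linter.unusedSectionVars false

namespace Cfsg.Agent.Suzuki2S

variable {P : Type*} [Group P] {Y : Subgroup (MulAut P)}

/-- Pairwise commuting operators: a common `{0,1}`-eigenvector for finitely many. -/
theorem exists_eigen {P : Type*} [Group P] {ι : Type*} (D : ι → P → P) (ok : P → Prop)
    (hok : ∀ i u, ok u → ok (D i u)) (hidem : ∀ i u, ok u → D i (D i u) = D i u)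
    (hone : ∀ i, D i 1 = 1) (hcomm : ∀ i j u, ok u → D i (D j u) = D j (D i u))
    (s : Finset ι) (u : P) (hu : ok u) (hu1 : u ≠ 1) :
    ∃ v, ok v ∧ v ≠ 1 ∧ ∀ i ∈ s, D i v = 1 ∨ D i v = v := by
  classical
  induction s using Finset.induction_on with
  | empty => exact ⟨u, hu, hu1, by simp⟩
  | @insert a s _ ih =>
    obtain ⟨v, hv, hv1, hs⟩ := ih
    by_cases h : D a v = 1
    · refine ⟨v, hv, hv1, fun i hi => ?_⟩
      rcases Finset.mem_insert.1 hi with rfl | hi
      · exact Or.inl h
      · exact hs i hi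
    · refine ⟨D a v, hok a v hv, h, fun i hi => ?_⟩
      rcases Finset.mem_insert.1 hi with rfl | hi
      · exact Or.inr (hidem _ _ hv)
      · rcases hs i hi with h' | h'
        · exact Or.inl (by rw [hcomm i a v hv, h', hone])
        · exact Or.inr (by rw [hcomm i a v hv, h'])

variable (hd : Data Y)
include hd

/-- A maximal good subgroup has exponent at most four. -/
theorem no_eight {A : Subgroup P} (hA : Good (Y := Y) A)
    (hmax : ∀ B : Subgroup P, Good (Y := Y) B → A ≤ B → B ≤ A)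
    {e : ℕ} (he3 : 3 ≤ e) (he : ∀ a ∈ A, a ^ 2 ^ e = 1)
    (he' : ∃ a ∈ A, a ^ 2 ^ (e - 1) ≠ 1) : False := by
  haveI := hd.finite
  classical
  have he1 : 1 ≤ e := by omega
  have he2 : 2 ≤ e := by omega
  have h4 : ∃ a ∈ A, a * a ≠ 1 := by
    obtain ⟨a, ha, hne⟩ := he'
    refine ⟨a, ha, fun h => hne ?_⟩
    rw [show e - 1 = e - 2 + 1 by omega, pow_succ', pow_mul, pow_two, h, one_pow]
  have hsc : ∀ y : P, (∀ a ∈ A, a * y = y * a) → y ∈ A := fun y hy =>
    centralizer_le hd hA hmax h4 hy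
  have hproper : ∃ x : P, x ∉ A := by
    obtain ⟨x, y, hxy⟩ := hd.noncomm
    by_contra h
    simp only [not_exists, not_not] at h
    exact hxy (hA.comm x (h x) y (h y))
  set M := stepSubgroup hA (⊤ : Subgroup P) with hM
  have hMσ : ∀ g ∈ Y, ∀ y ∈ M, g y ∈ M := fun g hg y hy =>
    stepSubgroup_inv hd hA (fun _ _ x _ => Subgroup.mem_top _) hg hy
  have hAM : A ≤ M := le_stepSubgroup hd hA le_top
  obtain ⟨y₁, -, hy₁A, hy₁2, hy₁c⟩ := exists_step hd hA ⊤ inferInstance
    (hproper.imp fun x hx => ⟨Subgroup.mem_top x, hx⟩)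
  have hy₁M : y₁ ∈ M := ⟨Subgroup.mem_top _, hy₁2, hy₁c⟩
  have hdelA : ∀ {y a : P}, a ∈ A → del y a ∈ A := fun {y a} ha => del_mem hd hA ha
  -- `D y u` is the commutator of a square root of `u` with `y`
  choose rt hrtA hrt using fun u hu => exists_root hd hA he he' he1 1 (by omega) u hu
  let D : P → P → P := fun y u => if h : u * u = 1 then del y (rt u h) else 1
  have hD : ∀ y (c : P), c ∈ A → c * c * (c * c) = 1 → D y (c * c) = del y c := by
    intro y c hc h
    simp only [D, dif_pos h]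
    set d := rt _ h
    have hdd : d * d = c * c := by simpa [pow_two] using hrt _ h
    have hs : d * c⁻¹ * (d * c⁻¹) = 1 := by
      calc d * c⁻¹ * (d * c⁻¹) = d * (c⁻¹ * d) * c⁻¹ := by group
        _ = d * (d * c⁻¹) * c⁻¹ := by rw [hA.comm _ (A.inv_mem hc) d (hrtA _ h)]
        _ = d * d * (c * c)⁻¹ := by group
        _ = 1 := by rw [hdd, mul_inv_cancel]
    have := del_mul_right hd hA (y := y) (A.mul_mem (hrtA _ h) (A.inv_mem hc)) hc
    rwa [inv_mul_cancel_right, del_invol hd hs, one_mul] at this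
  have hsqrt : ∀ u : P, u * u = 1 → ∃ c ∈ A, c * c = u := fun u hu =>
    ⟨rt u hu, hrtA u hu, by simpa [pow_two] using hrt u hu⟩
  have hDI : ∀ y u, u * u = 1 → D y u * D y u = 1 := by
    intro y u hu
    obtain ⟨c, hc, rfl⟩ := hsqrt u hu
    rw [hD y c hc hu, ← del_mul_right hd hA hc hc, del_invol hd hu]
  have hDone : ∀ y, D y 1 = 1 := fun y => by
    have h := hD y 1 A.one_mem (by simp)
    rw [mul_one] at h
    rw [h]; simp [del]
  have hDr : ∀ y u v, u * u = 1 → v * v = 1 → D y (u * v) = D y u * D y v := by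
    intro y u v hu hv
    obtain ⟨c, hc, rfl⟩ := hsqrt u hu
    obtain ⟨c', hc', rfl⟩ := hsqrt v hv
    have e1 : c * c * (c' * c') = c * c' * (c * c') := by
      calc c * c * (c' * c') = c * (c * c') * c' := by group
        _ = c * (c' * c) * c' := by rw [hA.comm c hc c' hc']
        _ = _ := by group
    rw [hD y c hc hu, hD y c' hc' hv, e1,
      hD y _ (A.mul_mem hc hc') (by rw [← e1]; exact invol_mul hd hu hv), del_mul_right hd hA hc hc']
  have hDl : ∀ y y' u, u * u = 1 → D (y * y') u = D y u * D y' u := by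
    intro y y' u hu
    have h1 := hDI y u hu
    obtain ⟨c, hc, rfl⟩ := hsqrt u hu
    rw [hD _ c hc hu, hD y' c hc hu, del_mul_left hd hA hc, ← hD y c hc hu,
      mul_assoc y'⁻¹, invol_central hd h1 y', inv_mul_cancel_left, invol_central hd h1]
  have hDσ : ∀ g ∈ Y, ∀ y u, u * u = 1 → D (g y) (g u) = g (D y u) := by
    intro g hg y u hu
    obtain ⟨c, hc, rfl⟩ := hsqrt u hu
    rw [hD y c hc hu, map_mul, hD _ _ (hA.inv g hg c hc) (by simp only [← map_mul, hu, map_one]),
      del_equiv]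
  have hidem : ∀ y ∈ M, ∀ u, u * u = 1 → D y (D y u) = D y u := by
    intro y hy u hu
    obtain ⟨d, hdA, rfl⟩ := exists_root hd hA he he' he1 2 (by omega) u hu
    have e4 : d ^ 2 ^ 2 = d * d * (d * d) := by simp [pow_succ, mul_assoc]
    rw [e4] at hu ⊢
    set w := del y d with hw
    have hwA : w ∈ A := hdelA hdA
    have hww : w * w = D y (d * d * (d * d)) := by
      rw [hD y _ (A.mul_mem hdA hdA) hu, del_mul_right hd hA hdA hdA]
    have hDD : D y (D y (d * d * (d * d))) = del y w := by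
      conv_lhs => arg 2; rw [← hww]
      exact hD y w hwA (by rw [hww]; exact hDI y _ hu)
    have hy2 : (y * y)⁻¹ * d * (y * y) = d := by
      rw [mul_assoc, hA.comm d hdA _ hy.2.1, inv_mul_cancel_left]
    have h1 : d * (w * (w * del y w)) = d := by
      calc d * (w * (w * del y w)) = (d * w) * (w * del y w) := by group
        _ = (y⁻¹ * d * y) * (y⁻¹ * w * y) := by rw [del_conj y d, del_conj y w]
        _ = y⁻¹ * (d * w) * y := by group
        _ = (y * y)⁻¹ * d * (y * y) := by rw [← del_conj y d]; group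
        _ = d := hy2
    rw [hDD]
    have h2 : w * w * del y w = 1 := by
      rw [mul_assoc]; exact mul_eq_left.1 h1
    rw [hww] at h2
    exact (eq_inv_of_mul_eq_one_right h2).trans
      (inv_eq_of_mul_eq_one_right (hDI y _ hu))
  have hDcomm : ∀ y ∈ M, ∀ y' ∈ M, ∀ u, u * u = 1 → D y (D y' u) = D y' (D y u) := by
    intro y hy y' hy' u hu
    have h := hidem _ (M.mul_mem hy hy') u hu
    have h1 := hDI y u hu
    have h2 := hDI y' u hu
    rw [hDl y y' u hu, hDl y y' _ (invol_mul hd h1 h2), hDr y _ _ h1 h2, hDr y' _ _ h1 h2,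
      hidem y hy u hu, hidem y' hy' u hu] at h
    have h3 : D y (D y' u) * D y' (D y u) = 1 := by
      calc D y (D y' u) * D y' (D y u)
          = (D y u)⁻¹ * (D y u * D y (D y' u) * (D y' (D y u) * D y' u)) * (D y' u)⁻¹ := by group
        _ = 1 := by rw [h]; group
    exact (eq_inv_of_mul_eq_one_left h3).trans
      (inv_eq_of_mul_eq_one_right (hDI y' _ h1))
  -- every element of `M` acts as `0` or `1`
  have heigen : ∀ y ∈ M, ∀ u, u * u = 1 → D y u = 1 ∨ D y u = u := by
    intro y hy u hu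
    by_cases hu1 : u = 1
    · exact Or.inl (by rw [hu1]; exact hDone y)
    haveI := Fintype.ofFinite P
    obtain ⟨v, hv, hv1, hvs⟩ := exists_eigen (fun y : M => D y.1) (fun u => u * u = 1)
      (fun i u hu => hDI i.1 u hu) (fun i u hu => hidem i.1 i.2 u hu) (fun i => hDone i.1)
      (fun i j u hu => hDcomm i.1 i.2 j.1 j.2 u hu) Finset.univ u hu hu1
    obtain ⟨g, hg, rfl⟩ := hd.trans v u hv1 hv hu1 hu
    obtain ⟨⟨y', hy'⟩, hy''⟩ := (Finite.injective_iff_surjective.1
      (show Function.Injective (fun a : M => (⟨g a.1, hMσ g hg a.1 a.2⟩ : M)) from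
        fun a b h => Subtype.ext (g.injective (congrArg Subtype.val h)))) ⟨y, hy⟩
    have hyy : g y' = y := congrArg Subtype.val hy''
    rw [← hyy, hDσ g hg _ _ hv]
    rcases hvs ⟨y', hy'⟩ (Finset.mem_univ _) with h | h
    · exact Or.inl (by rw [h, map_one])
    · exact Or.inr (by rw [h])
  have hscalar : ∀ y ∈ M, (∀ u, u * u = 1 → D y u = 1) ∨ (∀ u, u * u = 1 → D y u = u) := by
    intro y hy
    by_contra h
    simp only [not_or, not_forall] at h
    obtain ⟨⟨u, hu, hne⟩, v, hv, hne'⟩ := h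
    have hDu : D y u = u := (heigen y hy u hu).resolve_left hne
    have hDv : D y v = 1 := (heigen y hy v hv).resolve_right hne'
    have := heigen y hy (u * v) (invol_mul hd hu hv)
    rw [hDr y u v hu hv, hDu, hDv, mul_one] at this
    rcases this with h | h
    · exact hne (hDu.trans h)
    · exact hne' (hDv.trans (left_eq_mul.1 h).symm)
  -- the norm map `b ↦ b (y⁻¹ b y)`
  let φ : P → P → P := fun y b => b * (y⁻¹ * b * y)
  have hφmul : ∀ y, ∀ a ∈ A, ∀ b ∈ A, φ y (a * b) = φ y a * φ y b := by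
    intro y a ha b hb
    calc φ y (a * b) = a * (b * (y⁻¹ * a * y)) * (y⁻¹ * b * y) := by simp only [φ]; group
      _ = a * ((y⁻¹ * a * y) * b) * (y⁻¹ * b * y) := by rw [hA.comm b hb _ (hA.conj y a ha)]
      _ = _ := by simp only [φ]; group
  have hφdel : ∀ y, ∀ b : P, φ y b = b * b * del y b := fun y b => by
    simp only [φ, del]; group
  -- if `y` acts trivially and `y²` is a square in `A` then `y ∈ A`
  have key1 : ∀ y ∈ M, (∀ u, u * u = 1 → D y u = 1) → (y * y) ^ 2 ^ (e - 1) = 1 → y ∈ A := by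
    intro y hy hy0 hq
    obtain ⟨s, hs, hss⟩ := exists_sqrt hd hA he he' he1 (e - 1) (by omega) _ hy.2.1 hq
    let F : A →* A :=
      { toFun := fun b => ⟨φ y b.1, A.mul_mem b.2 (hA.conj y b.1 b.2)⟩
        map_one' := Subtype.ext (by simp [φ])
        map_mul' := fun a b => Subtype.ext (hφmul y a.1 a.2 b.1 b.2) }
    let S : A →* A :=
      { toFun := fun b => b * b
        map_one' := mul_one 1
        map_mul' := fun a b => Subtype.ext (by
          show a.1 * b.1 * (a.1 * b.1) = a.1 * a.1 * (b.1 * b.1)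
          calc a.1 * b.1 * (a.1 * b.1) = a.1 * (b.1 * a.1) * b.1 := by group
            _ = a.1 * (a.1 * b.1) * b.1 := by rw [hA.comm b.1 b.2 a.1 a.2]
            _ = _ := by group) }
    have hker : F.ker = S.ker := by
      ext ⟨b, hb⟩
      simp only [MonoidHom.mem_ker]
      constructor
      · intro h
        have h' : φ y b = 1 := congrArg Subtype.val h
        refine Subtype.ext (?_ : b * b = 1)
        by_contra hbb
        obtain ⟨n, hn⟩ := hd.pgroup b
        have hex : ∃ k, b ^ 2 ^ k = 1 := ⟨n, hn⟩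
        set k := Nat.find hex with hk
        have hk0 := Nat.find_spec hex
        rw [← hk] at hk0
        have hk2 : 2 ≤ k := by
          by_contra h2
          interval_cases hk' : k
          · simp at hk0; exact hbb (by rw [hk0, one_mul])
          · exact hbb (by simpa [pow_two] using hk0)
        set c := b ^ 2 ^ (k - 2) with hc
        have hcA : c ∈ A := A.pow_mem hb _
        have hcc : c * c = b ^ 2 ^ (k - 1) := by
          rw [hc, ← pow_add, ← two_mul, ← pow_succ', show k - 2 + 1 = k - 1 by omega]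
        have hc4 : c * c * (c * c) = 1 := by
          rw [hcc, ← pow_add, ← two_mul, ← pow_succ', show k - 1 + 1 = k by omega, hk0]
        have hpow : ∀ n : ℕ, φ y (b ^ n) = φ y b ^ n := by
          intro n
          induction n with
          | zero => simp [φ]
          | succ n ih => rw [pow_succ, hφmul y _ (A.pow_mem hb n) b hb, ih, pow_succ]
        have hφc : φ y c = 1 := by rw [hc, hpow, h', one_pow]
        rw [hφdel, ← hD y c hcA hc4, hy0 _ hc4, mul_one] at hφc
        rw [hcc] at hφc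
        exact Nat.find_min hex (show k - 1 < k by omega) hφc
      · intro h
        have h' : b * b = 1 := congrArg Subtype.val h
        exact Subtype.ext (show φ y b = 1 by rw [hφdel, h', one_mul, del_invol hd h'])
    have hle : F.range ≤ S.range := by
      rintro _ ⟨⟨b, hb⟩, rfl⟩
      have hb2 : (φ y b) ^ 2 ^ (e - 1) = 1 := by
        rw [hφdel, (show Commute (b * b) (del y b) from
          hA.comm _ (A.mul_mem hb hb) _ (hdelA hb)).mul_pow, ← pow_two, ← pow_mul,
          ← pow_succ', Nat.sub_add_cancel he1, he b hb, one_mul, ← del_pow hd hA hb]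
        refine del_invol hd ?_
        rw [← pow_add, ← two_mul, ← pow_succ', Nat.sub_add_cancel he1, he b hb]
      obtain ⟨r, hr, hrr⟩ := exists_sqrt hd hA he he' he1 (e - 1) (by omega) _
        (A.mul_mem hb (hA.conj y b hb)) hb2
      exact ⟨⟨r, hr⟩, Subtype.ext hrr⟩
    have heq : F.range = S.range := by
      refine Subgroup.eq_of_le_of_card_ge hle (le_of_eq ?_)
      have h1 : F.ker.index = S.ker.index := by rw [hker]
      rwa [Subgroup.index_ker, Subgroup.index_ker, eq_comm] at h1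
    obtain ⟨⟨b, hb⟩, hbF⟩ : S ⟨s, hs⟩⁻¹ ∈ F.range := heq ▸ ⟨_, rfl⟩
    have hφb : φ y b = s⁻¹ * s⁻¹ := congrArg Subtype.val hbF
    have hφA : φ y b ∈ A := A.mul_mem hb (hA.conj y b hb)
    have h2 : y * b * (y * b) = 1 := by
      calc y * b * (y * b) = y * y * ((y⁻¹ * b * y) * b) := by group
        _ = y * y * φ y b := by rw [hA.comm _ (hA.conj y b hb) b hb]
        _ = 1 := by rw [hφb, ← hss]; group
    have := A.mul_mem (mem_A_of_sq hd hA h2) (A.inv_mem hb)
    rwa [mul_inv_cancel_right] at this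
  -- no element outside `A` acts trivially
  let M0 : Subgroup P :=
    { carrier := {y | y ∈ M ∧ ∀ u, u * u = 1 → D y u = 1}
      one_mem' := ⟨M.one_mem, fun u hu => by
        obtain ⟨c, hc, rfl⟩ := hsqrt u hu
        rw [hD 1 c hc hu]; simp [del]⟩
      mul_mem' := fun {a b} ha hb => ⟨M.mul_mem ha.1 hb.1, fun u hu => by
        rw [hDl a b u hu, ha.2 u hu, hb.2 u hu, one_mul]⟩
      inv_mem' := fun {a} ha => ⟨M.inv_mem ha.1, fun u hu => by
        have h1 : D (1 : P) u = 1 := by
          obtain ⟨c, hc, rfl⟩ := hsqrt u hu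
          rw [hD 1 c hc hu]; simp [del]
        have h := hDl a a⁻¹ u hu
        rw [mul_inv_cancel, h1, ha.2 u hu, one_mul] at h
        exact h.symm⟩ }
  have hM0A : ∀ y ∈ M0, y ∈ A := by
    intro y₀ hy₀
    by_contra hy₀A
    have hM0σ : ∀ g ∈ Y, ∀ y ∈ M0, g y ∈ M0 := fun g hg y hy => ⟨hMσ g hg y hy.1, fun u hu => by
      obtain ⟨u', rfl⟩ := g.surjective u
      have hu' : u' * u' = 1 := g.injective (by simpa using hu)
      rw [hDσ g hg y u' hu', hy.2 u' hu', map_one]⟩
    let q : P → P := fun y => (y * y) ^ 2 ^ (e - 1)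
    have hqI : ∀ y ∈ M0, q y * q y = 1 := fun y hy => by
      simp only [q]
      rw [← pow_add, ← two_mul, ← pow_succ', Nat.sub_add_cancel he1, he _ hy.1.2.1]
    have hdel2 : ∀ y ∈ M0, ∀ a ∈ A, a * a * (a * a) = 1 → del y a = 1 := fun y hy a ha h => by
      rw [← hD y a ha h, hy.2 _ h]
    have hq : ∀ y ∈ M0, ∀ y' ∈ M0, q (y * y') = q y * q y' := by
      intro y hy y' hy'
      set c := y'⁻¹ * y⁻¹ * y' * y with hcdef
      have hcA : c ∈ A := hy'.1.2.2 y
      have h1 : y * y' * (y * y') = y * y * (y' * y') * (y'⁻¹ * c * y') := by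
        rw [hcdef]; group
      have hφc : φ y' c = del y (y' * y') := by
        calc φ y' c = (y'⁻¹ * c * y') * c := hA.comm _ hcA _ (hA.conj y' c hcA)
          _ = _ := by simp only [del, hcdef]; group
      have hkey : c ^ 2 ^ (e - 1) = 1 := by
        set x := c ^ 2 ^ (e - 2) with hx
        have hxA : x ∈ A := A.pow_mem hcA _
        have hxx : x * x = c ^ 2 ^ (e - 1) := by
          rw [hx, ← pow_add, ← two_mul, ← pow_succ', show e - 2 + 1 = e - 1 by omega]
        have hx4 : x * x * (x * x) = 1 := by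
          rw [hxx, ← pow_add, ← two_mul, ← pow_succ', Nat.sub_add_cancel he1, he c hcA]
        have hpow : ∀ n : ℕ, φ y' (c ^ n) = φ y' c ^ n := by
          intro n
          induction n with
          | zero => simp [φ]
          | succ n ih => rw [pow_succ, hφmul y' _ (A.pow_mem hcA n) c hcA, ih, pow_succ]
        have h2 : φ y' x = 1 := by
          rw [hx, hpow, hφc, ← del_pow hd hA hy'.1.2.1]
          refine hdel2 y hy _ (A.pow_mem hy'.1.2.1 _) ?_
          rw [← pow_add, ← two_mul, ← pow_succ', show e - 2 + 1 = e - 1 by omega, ← pow_add,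
            ← two_mul, ← pow_succ', Nat.sub_add_cancel he1, he _ hy'.1.2.1]
        rwa [hφdel, hdel2 y' hy' x hxA hx4, mul_one, hxx] at h2
      have hconj : (y'⁻¹ * c * y') ^ 2 ^ (e - 1) = 1 := by
        have h := conj_pow (i := 2 ^ (e - 1)) (a := y'⁻¹) (b := c)
        rw [inv_inv] at h
        rw [h, hkey, mul_one, inv_mul_cancel]
      simp only [q]
      rw [h1, (show Commute (y * y * (y' * y')) (y'⁻¹ * c * y') from
          hA.comm _ (A.mul_mem hy.1.2.1 hy'.1.2.1) _ (hA.conj y' c hcA)).mul_pow,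
        (show Commute (y * y) (y' * y') from hA.comm _ hy.1.2.1 _ hy'.1.2.1).mul_pow, hconj,
        mul_one]
    have hqσ : ∀ (g : MulAut P) y, q (g y) = g (q y) := fun g y => by simp [q]
    have honto : ∀ u : P, u * u = 1 → ∃ y ∈ M0, q y = u := by
      intro u hu
      by_cases hu1 : u = 1
      · exact ⟨1, M0.one_mem, by simp [q, hu1]⟩
      obtain ⟨g, hg, rfl⟩ := hd.trans (q y₀) u (fun h => hy₀A (key1 _ hy₀.1 hy₀.2 h))
        (hqI _ hy₀) hu1 hu
      exact ⟨g y₀, hM0σ g hg y₀ hy₀, by simp [q]⟩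
    have hqA : ∀ y ∈ M0, q y = 1 → y ∈ A := fun y hy h => key1 y hy.1 hy.2 h
    have hlevel : ∀ j, 2 ≤ j → j ≤ e → ∀ y ∈ M0, ∀ d ∈ A, d ^ 2 ^ j = 1 → del y d = 1 := by
      intro j hj2
      induction j, hj2 using Nat.le_induction with
      | base =>
        intro _ y hy d hdA h
        exact hdel2 y hy d hdA (by rw [← h]; simp [pow_succ, mul_assoc])
      | succ j hj2 ih =>
        intro hje y hy d hdA h
        have ihj := ih (by omega)
        choose sec hsecA hsec using fun u hu => exists_root hd hA he he' he1 j hje u hu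
        let T : P → P → P := fun y u => if h : u * u = 1 then del y (sec u h) else 1
        have hT : ∀ y ∈ M0, ∀ (d : P), d ∈ A → (h : d ^ 2 ^ j * d ^ 2 ^ j = 1) →
            T y (d ^ 2 ^ j) = del y d := by
          intro y hy d hdA h
          simp only [T, dif_pos h]
          set r := sec _ h
          have hr : r ^ 2 ^ j = d ^ 2 ^ j := hsec _ h
          have hrd : (r * d⁻¹) ^ 2 ^ j = 1 := by
            rw [(show Commute r d⁻¹ from hA.comm r (hsecA _ h) _ (A.inv_mem hdA)).mul_pow,
              inv_pow, hr, mul_inv_cancel]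
          have := del_mul_right hd hA (y := y) (A.mul_mem (hsecA _ h) (A.inv_mem hdA)) hdA
          rwa [inv_mul_cancel_right, ihj y hy _ (A.mul_mem (hsecA _ h) (A.inv_mem hdA)) hrd,
            one_mul] at this
        have hI2 : ∀ y ∈ M0, ∀ d ∈ A, d ^ 2 ^ j * d ^ 2 ^ j = 1 → del y d * del y d = 1 := by
          intro y hy d hdA h
          rw [← del_mul_right hd hA hdA hdA]
          refine ihj y hy _ (A.mul_mem hdA hdA) ?_
          rw [← pow_two, ← pow_mul, ← pow_succ', pow_succ, pow_mul, pow_two, h]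
        have hs2 : ∀ u (hu : u * u = 1), sec u hu ^ 2 ^ j * sec u hu ^ 2 ^ j = 1 :=
          fun u hu => by rw [hsec u hu]; exact hu
        have hmain := alt_trivial hd M0 hM0σ q T hqI hq (fun g _ y _ => hqσ g y) honto ?_ ?_ ?_ ?_ ?_ ?_
        · have hd2 : d ^ 2 ^ j * d ^ 2 ^ j = 1 := by rw [← pow_add, ← two_mul, ← pow_succ', h]
          rw [← hT y hy d hdA hd2]
          exact hmain y hy _ hd2
        · intro y hy u hu
          simp only [T, dif_pos hu]
          exact hI2 y hy _ (hsecA u hu) (hs2 u hu)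
        · intro y hy y' hy' u hu
          simp only [T, dif_pos hu]
          have h1 := hI2 y hy _ (hsecA u hu) (hs2 u hu)
          rw [del_mul_left hd hA (hsecA u hu), mul_assoc y'⁻¹, invol_central hd h1 y',
            inv_mul_cancel_left, invol_central hd h1]
        · intro y hy u v hu hv
          obtain ⟨a, ha, rfl⟩ : ∃ a ∈ A, a ^ 2 ^ j = u := ⟨_, hsecA u hu, hsec u hu⟩
          obtain ⟨b, hb, rfl⟩ : ∃ b ∈ A, b ^ 2 ^ j = v := ⟨_, hsecA v hv, hsec v hv⟩
          have e1 := (show Commute a b from hA.comm a ha b hb).mul_pow (2 ^ j)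
          rw [← e1, hT y hy _ (A.mul_mem ha hb) (by rw [e1]; exact invol_mul hd hu hv),
            hT y hy a ha hu, hT y hy b hb hv, del_mul_right hd hA ha hb]
        · intro g hg y hy u hu
          obtain ⟨a, ha, rfl⟩ : ∃ a ∈ A, a ^ 2 ^ j = u := ⟨_, hsecA u hu, hsec u hu⟩
          rw [map_pow, hT y hy a ha hu,
            hT _ (hM0σ g hg y hy) _ (hA.inv g hg a ha) (by rw [← map_pow, ← map_mul, hu, map_one]), del_equiv]
        · intro y hy u hu hq0
          simp only [T, dif_pos hu]
          have hyA := hqA y hy hq0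
          rw [del, mul_assoc y⁻¹, hA.comm _ (hsecA u hu) y hyA, inv_mul_cancel_left,
            inv_mul_cancel]
        · intro y hy
          have hyy : y * y ∈ A := hy.1.2.1
          have e1 : q y = ((y * y) ^ 2 ^ (e - 1 - j)) ^ 2 ^ j := by
            simp only [q]; rw [← pow_mul, ← pow_add, Nat.sub_add_cancel (by omega)]
          rw [e1, hT y hy _ (A.pow_mem hyy _) (by rw [← e1]; exact hqI y hy),
            del_pow hd hA hyy]
          have : del y (y * y) = 1 := by simp only [del]; group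
          rw [this, one_pow]
    refine hy₀A (hsc y₀ fun a ha => ?_)
    have h := hlevel e (by omega) le_rfl y₀ hy₀ a ha (he a ha)
    have h2 := del_conj y₀ a
    rw [h, mul_one] at h2
    calc a * y₀ = y₀ * (y₀⁻¹ * a * y₀) := by group
      _ = y₀ * a := by rw [h2]
  -- the elements outside `A` invert the elements of order four
  have hone : ∀ y ∈ M, y ∉ A → ∀ u, u * u = 1 → D y u = u := fun y hy hyA =>
    (hscalar y hy).resolve_left fun h => hyA (hM0A y ⟨hy, h⟩)
  have htwo : ∀ y ∈ M, y ∉ A → ∀ y' ∈ M, y' ∉ A → y * y' ∈ A := fun y hy hyA y' hy' hyA' =>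
    hM0A _ ⟨M.mul_mem hy hy', fun u hu => by
      rw [hDl y y' u hu, hone y hy hyA u hu, hone y' hy' hyA' u hu]; exact hu⟩
  have hfix : ∀ y ∈ M, y ∉ A → y * y * (y * y) = 1 := by
    intro y hy hyA
    by_contra hne
    obtain ⟨n, hn⟩ := hd.pgroup (y * y)
    have hex : ∃ k, (y * y) ^ 2 ^ k = 1 := ⟨n, hn⟩
    set k := Nat.find hex with hk
    have hk0 := Nat.find_spec hex
    rw [← hk] at hk0
    have hk2 : 2 ≤ k := by
      by_contra h2
      interval_cases hk' : k
      · simp at hk0; exact hne (by rw [hk0, one_mul])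
      · exact hne (by simpa [pow_two] using hk0)
    set c := (y * y) ^ 2 ^ (k - 2) with hc
    have hcA : c ∈ A := A.pow_mem hy.2.1 _
    have hcc : c * c = (y * y) ^ 2 ^ (k - 1) := by
      rw [hc, ← pow_add, ← two_mul, ← pow_succ', show k - 2 + 1 = k - 1 by omega]
    have hc4 : c * c * (c * c) = 1 := by
      rw [hcc, ← pow_add, ← two_mul, ← pow_succ', show k - 1 + 1 = k by omega, hk0]
    have h1 : del y c = 1 := by
      rw [hc, del_pow hd hA hy.2.1, show del y (y * y) = 1 by simp only [del]; group, one_pow]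
    rw [← hD y c hcA hc4, hone y hy hyA _ hc4, hcc] at h1
    exact Nat.find_min hex (show k - 1 < k by omega) h1
  -- the squares of the coset `y₁ A` would be all involutions
  let F : A →* P :=
    { toFun := fun b => φ y₁ b.1
      map_one' := by simp [φ]
      map_mul' := fun a b => hφmul y₁ a.1 a.2 b.1 b.2 }
  have hsqb : ∀ b ∈ A, y₁ * b * (y₁ * b) = y₁ * y₁ * φ y₁ b := by
    intro b hb
    calc y₁ * b * (y₁ * b) = y₁ * y₁ * ((y₁⁻¹ * b * y₁) * b) := by group
      _ = _ := by rw [hA.comm _ (hA.conj y₁ b hb) b hb]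
  have hout : ∀ b ∈ A, y₁ * b ∉ A := fun b hb h => hy₁A (by
    have := A.mul_mem h (A.inv_mem hb); rwa [mul_inv_cancel_right] at this)
  have hval : ∀ b ∈ A, y₁ * b * (y₁ * b) * (y₁ * b * (y₁ * b)) = 1 ∧ y₁ * b * (y₁ * b) ≠ 1 :=
    fun b hb => ⟨hfix _ (M.mul_mem hy₁M (hAM hb)) (hout b hb),
      fun h => hout b hb (mem_A_of_sq hd hA h)⟩
  have hS : ∀ u : P, u ≠ 1 → u * u = 1 → ∃ w ∈ F.range, y₁ * y₁ * w = u := by
    intro u hu1 hu
    obtain ⟨h1, h2⟩ := hval 1 A.one_mem
    rw [mul_one] at h1 h2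
    obtain ⟨g, hg, rfl⟩ := hd.trans (y₁ * y₁) u h2 h1 hu1 hu
    have hσA : g y₁ ∉ A := by
      intro h
      obtain ⟨⟨a, ha⟩, ha'⟩ := (Finite.injective_iff_surjective.1
        (show Function.Injective (fun a : A => (⟨g a.1, hA.inv g hg a.1 a.2⟩ : A)) from
          fun a b h => Subtype.ext (g.injective (congrArg Subtype.val h)))) ⟨_, h⟩
      exact hy₁A (g.injective (congrArg Subtype.val ha' : g a = _) ▸ ha)
    obtain ⟨b, hb, hb'⟩ : ∃ b ∈ A, g y₁ = y₁ * b := by
      refine ⟨y₁⁻¹ * g y₁, ?_, by group⟩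
      have h2 := htwo y₁ hy₁M hy₁A _ (hMσ g hg _ hy₁M) hσA
      have : y₁⁻¹ * g y₁ = (y₁ * y₁)⁻¹ * (y₁ * g y₁) := by group
      rw [this]
      exact A.mul_mem (A.inv_mem hy₁2) h2
    refine ⟨F ⟨b, hb⟩, ⟨_, rfl⟩, ?_⟩
    rw [map_mul, hb', hsqb b hb]; rfl
  have hFI : F.range ≤ invSubgroup hd := by
    rintro _ ⟨⟨b, hb⟩, rfl⟩
    have h1 := (hval b hb).1
    rw [hsqb b hb] at h1
    have h0 : y₁ * y₁ * (y₁ * y₁) = 1 := hfix y₁ hy₁M hy₁A
    have h := invol_mul hd h0 h1
    rwa [← mul_assoc (y₁ * y₁), h0, one_mul] at h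
  have hcard : Nat.card F.range + 1 = Nat.card (invSubgroup hd) := by
    let g : Option F.range → invSubgroup hd := fun o => o.elim 1 fun w =>
      ⟨y₁ * y₁ * w.1, invol_mul hd (hfix y₁ hy₁M hy₁A) (hFI w.2)⟩
    have hg : Function.Bijective g := by
      constructor
      · rintro (_ | ⟨w, b, rfl⟩) (_ | ⟨w', b', rfl⟩) h
        · rfl
        · exact absurd ((congrArg Subtype.val h).symm.trans (show ((1 : invSubgroup hd) : P) = 1
            from rfl)) (fun h' => (hval b'.1 b'.2).2 ((hsqb b'.1 b'.2).trans h'))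
        · exact absurd ((congrArg Subtype.val h).trans (show ((1 : invSubgroup hd) : P) = 1
            from rfl)) (fun h' => (hval b.1 b.2).2 ((hsqb b.1 b.2).trans h'))
        · exact congrArg some (Subtype.ext (mul_left_cancel (congrArg Subtype.val h)))
      · rintro ⟨u, hu⟩
        by_cases hu1 : u = 1
        · exact ⟨none, Subtype.ext hu1.symm⟩
        · obtain ⟨w, hw, rfl⟩ := hS u hu1 hu
          exact ⟨some ⟨w, hw⟩, rfl⟩
    rw [← Finite.card_option, Nat.card_eq_of_bijective g hg]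
  obtain ⟨x, y, hxy, hx1, hx2, hy1, hy2⟩ := hd.two
  have hI3 : 3 ≤ Nat.card (invSubgroup hd) := by
    haveI := Fintype.ofFinite (invSubgroup hd)
    rw [Nat.card_eq_fintype_card]
    refine Fintype.two_lt_card_iff.2 ⟨1, ⟨x, hx2⟩, ⟨y, hy2⟩, ?_, ?_, ?_⟩ <;>
      simp [Subtype.ext_iff, hxy, Ne.symm hx1, Ne.symm hy1]
  have hdvd := Subgroup.card_dvd_of_le hFI
  rw [← hcard, Nat.dvd_add_self_left] at hdvd
  have := Nat.dvd_one.1 hdvd
  omega

/-- The centre of a Suzuki 2-group is elementary abelian. -/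
theorem center_sq : ∀ z ∈ Subgroup.center P, z * z = 1 := by
  haveI := hd.finite
  classical
  by_contra hno
  simp only [not_forall] at hno
  obtain ⟨z₀, hz₀, hz₀'⟩ := hno
  obtain ⟨A, hA, hmax⟩ := (Set.toFinite {A : Subgroup P | Good (Y := Y) A}).exists_maximal
    ⟨_, center_good hd⟩
  have h4 : ∃ a ∈ A, a * a ≠ 1 := ⟨z₀, hA.center hz₀, hz₀'⟩
  have hsc : ∀ y : P, (∀ a ∈ A, a * y = y * a) → y ∈ A := fun y hy =>
    centralizer_le hd hA (fun B hB hle => hmax hB hle) h4 hy
  have hproper : ∃ x : P, x ∉ A := by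
    obtain ⟨x, y, hxy⟩ := hd.noncomm
    by_contra h
    simp only [not_exists, not_not] at h
    exact hxy (hA.comm x (h x) y (h y))
  obtain ⟨e, he2, he, he'⟩ := exists_exponent hd h4
  have he1 : 1 ≤ e := by omega
  have he3 : 3 ≤ e := by
    by_contra h
    have he2' : e = 2 := by omega
    obtain ⟨x, hx⟩ := hproper
    refine hx (hsc x fun a ha => ?_)
    have hroot := exists_exponent hd (A := Subgroup.center P) ⟨z₀, hz₀, hz₀'⟩
    obtain ⟨f, hf2, hf, hf'⟩ := hroot
    have haa : a * a * (a * a) = 1 := by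
      have := he a ha
      rw [he2'] at this
      simpa [pow_succ, mul_assoc] using this
    obtain ⟨w, hwc, hw⟩ := exists_root hd (center_good hd) hf hf' (by omega) 1 hf2 _ haa
    have hww : w * w = a * a := by simpa [pow_two] using hw
    have hsq : a * w⁻¹ * (a * w⁻¹) = 1 := by
      calc a * w⁻¹ * (a * w⁻¹) = a * (w⁻¹ * a) * w⁻¹ := by group
        _ = a * (a * w⁻¹) * w⁻¹ := by
          rw [Subgroup.mem_center_iff.1 ((Subgroup.center P).inv_mem hwc) a]
        _ = a * a * (w * w)⁻¹ := by group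
        _ = 1 := by rw [hww, mul_inv_cancel]
    have hac : a ∈ Subgroup.center P := by
      have := (Subgroup.center P).mul_mem (mem_A_of_sq hd (center_good hd) hsq) hwc
      rwa [inv_mul_cancel_right] at this
    exact (Subgroup.mem_center_iff.1 hac x).symm
  exact no_eight hd hA (fun B hB hle => hmax hB hle) he3 he he'

/-- Higman's first part. -/
theorem invol_iff_center {x : P} : (x ≠ 1 ∧ x * x = 1) ↔ (x ∈ Subgroup.center P ∧ x ≠ 1) :=
  ⟨fun h => ⟨Subgroup.mem_center_iff.2 fun y => (invol_central hd h.2 y).symm, h.1⟩,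
    fun h => ⟨h.2, center_sq hd x h.1⟩⟩

end Cfsg.Agent.Suzuki2S
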