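import Mathlib.Data.Nat.ModEq
import Mathlib.Data.Finset.Card
import Mathlib.Algebra.Order.BigOperators.Group.Finset
import Mathlib.Tactic

/-!
# Sums of two powers of two modulo large divisors of `2 ^ n - 1`

If `m ∣ 2 ^ n - 1` and `(2 ^ n - 1) / m` divides `n`, then `2 ^ a + 2 ^ b ≡ 2 ^ c + 2 ^ e (mod m)`
with exponents below `n` forces equality of the pairs.
-/

set_option autoImplicit false

namespace Cfsg.Agent.Suzuki2S

/-- A sum of two powers of two determines the pair. -/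
theorem two_pow_add_inj {a b c e : ℕ} (h : 2 ^ a + 2 ^ b = 2 ^ c + 2 ^ e) :
    (a = c ∧ b = e) ∨ (a = e ∧ b = c) := by
  wlog hab : a ≤ b generalizing a b
  · rcases this (by rw [Nat.add_comm (2 ^ b)]; exact h) (Nat.le_of_lt (not_le.1 hab)) with
      ⟨h1, h2⟩ | ⟨h1, h2⟩
    · exact Or.inr ⟨h2, h1⟩
    · exact Or.inl ⟨h2, h1⟩
  wlog hce : c ≤ e generalizing c e
  · rcases this (by rw [Nat.add_comm (2 ^ e)]; exact h) (Nat.le_of_lt (not_le.1 hce)) with h1 | h1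
    · exact Or.inr h1
    · exact Or.inl h1
  left
  rcases Nat.lt_trichotomy b e with hlt | rfl | hlt
  · have h1 : 2 ^ a ≤ 2 ^ b := Nat.pow_le_pow_right (by norm_num) hab
    have h2 : 2 ^ (b + 1) ≤ 2 ^ e := Nat.pow_le_pow_right (by norm_num) hlt
    have h3 := Nat.one_le_two_pow (n := c)
    rw [pow_succ] at h2
    omega
  · exact ⟨Nat.pow_right_injective le_rfl (Nat.add_right_cancel h), rfl⟩
  · have h1 : 2 ^ c ≤ 2 ^ e := Nat.pow_le_pow_right (by norm_num) hce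
    have h2 : 2 ^ (e + 1) ≤ 2 ^ b := Nat.pow_le_pow_right (by norm_num) hlt
    have h3 := Nat.one_le_two_pow (n := a)
    rw [pow_succ] at h2
    omega

/-- No relation `2 ^ a + 2 ^ b ≡ 2 ^ c` with `a ≠ b`. -/
def MulCheck (n m : ℕ) : Prop :=
  ∀ a < n, ∀ b < n, ∀ c < n, (2 ^ a + 2 ^ b) % m = 2 ^ c % m → a = b

/-- No relation `2 ^ p + 2 ^ t ≡ 1 + 2 ^ (p + u)` with `t ≠ u`. -/
def RatioCheck (n m : ℕ) : Prop :=
  ∀ p < n, ∀ t < n, ∀ u < n, (2 ^ p + 2 ^ t) % m = (1 + 2 ^ ((p + u) % n)) % m → t = u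

instance (n m : ℕ) : Decidable (MulCheck n m) := by unfold MulCheck; infer_instance

instance (n m : ℕ) : Decidable (RatioCheck n m) := by unfold RatioCheck; infer_instance

theorem small_mul : ∀ n < 7, ∀ d < n + 1, d ∣ n → d ∣ 2 ^ n - 1 →
    MulCheck n ((2 ^ n - 1) / d) := by
  decide +kernel

theorem small_ratio : ∀ n < 7, ∀ d < n + 1, d ∣ n → d ∣ 2 ^ n - 1 →
    RatioCheck n ((2 ^ n - 1) / d) := by
  decide +kernel

/-- The middle range for the size of the modulus. -/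
theorem middle_cases : ∀ n < 24, 7 ≤ n → ∀ d < n + 1, d ∣ n → d ∣ 2 ^ n - 1 →
    2 ^ (n - (n + 3) / 4 + 1) < (2 ^ n - 1) / d := by
  decide +kernel

theorem add_one_le_two_pow : ∀ g, 6 ≤ g → 4 * g + 1 ≤ 2 ^ (g - 1) := by
  intro g hg
  induction g, hg using Nat.le_induction with
  | base => norm_num
  | succ g hg ih =>
    rw [Nat.add_sub_cancel, show g = g - 1 + 1 by omega, pow_succ]
    omega

theorem modulus_large {n d : ℕ} (h7 : 7 ≤ n) (hdn : d ∣ n) (hd2 : d ∣ 2 ^ n - 1) :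
    2 ^ (n - (n + 3) / 4 + 1) < (2 ^ n - 1) / d := by
  have hd0 : 0 < d := Nat.pos_of_dvd_of_pos hdn (by omega)
  have hdle : d ≤ n := Nat.le_of_dvd (by omega) hdn
  by_cases h24 : n < 24
  · exact middle_cases n h24 h7 d (by omega) hdn hd2
  set g := (n + 3) / 4 with hg
  have hg1 : n + 1 ≤ 2 ^ (g - 1) := le_trans (by omega) (add_one_le_two_pow g (by omega))
  have hE : 2 ^ (n - g + 1) * 2 ^ (g - 1) = 2 ^ n := by
    rw [← pow_add]; congr 1; omega
  have h2 : (2 ^ (n - g + 1) + 1) * d ≤ 2 ^ n - 1 := by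
    have h3 := Nat.mul_le_mul_left (2 ^ (n - g + 1)) (le_trans (Nat.add_le_add_right hdle 1) hg1)
    rw [hE, Nat.mul_add, mul_one] at h3
    have h4 : 2 ^ (g - 1) ≤ 2 ^ (n - g + 1) := Nat.pow_le_pow_right (by norm_num) (by omega)
    rw [Nat.add_mul, one_mul]
    omega
  exact Nat.lt_of_succ_le ((Nat.le_div_iff_mul_le hd0).2 h2)

/-- Four residues modulo `n` miss `g - 1` consecutive ones if `4 * (g - 1) < n`. -/
theorem exists_shift {n g : ℕ} (hg : 4 * (g - 1) < n) (s : Finset ℕ) (hs : s.card ≤ 4) :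
    ∃ r < n, ∀ x ∈ s, (x + r) % n ≤ n - g := by
  classical
  have hn : 0 < n := by omega
  let bad : Finset ℕ := s.biUnion fun x =>
    (Finset.range (g - 1)).image fun k => (n - g + 1 + k + (n - x % n)) % n
  have hcard : bad.card < (Finset.range n).card := by
    rw [Finset.card_range]
    refine lt_of_le_of_lt (Finset.card_biUnion_le.trans (Finset.sum_le_card_nsmul _ _ (g - 1)
      fun x _ => Finset.card_image_le.trans (le_of_eq (Finset.card_range _)))) ?_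
    rw [smul_eq_mul]
    exact lt_of_le_of_lt (Nat.mul_le_mul_right _ hs) hg
  obtain ⟨r, hr, hrb⟩ := Finset.exists_mem_notMem_of_card_lt_card hcard
  rw [Finset.mem_range] at hr
  refine ⟨r, hr, fun x hx => ?_⟩
  by_contra hlt
  refine hrb (Finset.mem_biUnion.2 ⟨x, hx,
    Finset.mem_image.2 ⟨(x + r) % n - (n - g + 1), ?_, ?_⟩⟩)
  · rw [Finset.mem_range]
    have := Nat.mod_lt (x + r) hn
    omega
  · rw [show n - g + 1 + ((x + r) % n - (n - g + 1)) = (x + r) % n by omega]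
    rw [Nat.mod_add_mod, Nat.add_mod, show (n - x % n) = n - x % n from rfl, ← Nat.add_mod]
    have h1 : x + r + (n - x % n) = r + n * (x / n + 1) := by
      have := Nat.div_add_mod x n
      have := Nat.mod_lt x hn
      rw [Nat.mul_add, mul_one]
      omega
    rw [h1, Nat.add_mul_mod_self_left, Nat.mod_eq_of_lt hr]

theorem exists_cofactor {n m : ℕ} (hn : 0 < n) (hm : m ∣ 2 ^ n - 1) (hmn : 2 ^ n - 1 ∣ m * n) :
    ∃ d, d ∣ n ∧ d ∣ 2 ^ n - 1 ∧ d < n + 1 ∧ (2 ^ n - 1) / d = m := by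
  obtain ⟨d, hd⟩ := hm
  have hN : 0 < 2 ^ n - 1 := Nat.sub_pos_of_lt (Nat.one_lt_two_pow hn.ne')
  have hm0 : 0 < m := Nat.pos_of_mul_pos_right (hd ▸ hN)
  have hd0 : 0 < d := Nat.pos_of_mul_pos_left (hd ▸ hN)
  have hdn : d ∣ n := Nat.dvd_of_mul_dvd_mul_left hm0 (hd ▸ hmn)
  exact ⟨d, hdn, hd ▸ dvd_mul_left d m, Nat.lt_succ_of_le (Nat.le_of_dvd hn hdn),
    by rw [hd, Nat.mul_div_cancel _ hd0]⟩

/-- Equal sums of two powers of two modulo a divisor of `2 ^ n - 1` of small cofactor. -/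
theorem pair_of_modEq {n m a b c e : ℕ} (h7 : 7 ≤ n) (hm : m ∣ 2 ^ n - 1) (hmn : 2 ^ n - 1 ∣ m * n)
    (ha : a < n) (hb : b < n) (hc : c < n) (he : e < n)
    (h : 2 ^ a + 2 ^ b ≡ 2 ^ c + 2 ^ e [MOD m]) : (a = c ∧ b = e) ∨ (a = e ∧ b = c) := by
  obtain ⟨d, hdn, hd2, -, hmd⟩ := exists_cofactor (by omega) hm hmn
  obtain ⟨r, -, hr⟩ := exists_shift (n := n) (g := (n + 3) / 4) (by omega) {a, b, c, e}
    (Finset.card_le_four)
  have hlarge := modulus_large h7 hdn hd2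
  rw [hmd] at hlarge
  have hpow : 2 ^ n ≡ 1 [MOD m] :=
    ((Nat.modEq_iff_dvd' Nat.one_le_two_pow).2 hm).symm
  have hsh : ∀ x : ℕ, 2 ^ r * 2 ^ x ≡ 2 ^ ((x + r) % n) [MOD m] := by
    intro x
    rw [← pow_add, Nat.add_comm r x]
    conv_lhs => rw [← Nat.mod_add_div (x + r) n, pow_add, pow_mul]
    simpa using (hpow.pow ((x + r) / n)).mul_left (2 ^ ((x + r) % n))
  have h' := h.mul_left (2 ^ r)
  rw [Nat.mul_add, Nat.mul_add] at h'
  have h2 := (((hsh a).add (hsh b)).symm.trans h').trans ((hsh c).add (hsh e))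
  have hlt : ∀ x y, (x + r) % n ≤ n - (n + 3) / 4 → (y + r) % n ≤ n - (n + 3) / 4 →
      2 ^ ((x + r) % n) + 2 ^ ((y + r) % n) < m := by
    intro x y hx hy
    have h3 := Nat.pow_le_pow_right (show 0 < 2 by norm_num) hx
    have h4 := Nat.pow_le_pow_right (show 0 < 2 by norm_num) hy
    rw [pow_succ] at hlarge
    omega
  have h5 := h2.eq_of_lt_of_lt (hlt a b (hr a (by simp)) (hr b (by simp)))
    (hlt c e (hr c (by simp)) (hr e (by simp)))
  have hcan : ∀ x y, x < n → y < n → (x + r) % n = (y + r) % n → x = y := by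
    intro x y hx hy hxy
    have := Nat.ModEq.add_right_cancel' r hxy
    rwa [Nat.ModEq, Nat.mod_eq_of_lt hx, Nat.mod_eq_of_lt hy] at this
  rcases two_pow_add_inj h5 with ⟨h6, h7⟩ | ⟨h6, h7⟩
  · exact Or.inl ⟨hcan _ _ ha hc h6, hcan _ _ hb he h7⟩
  · exact Or.inr ⟨hcan _ _ ha he h6, hcan _ _ hb hc h7⟩

/-- `2 ^ a + 2 ^ b ≡ 2 ^ c` forces `a = b`. -/
theorem eq_of_modEq_pow {n m a b c : ℕ} (hn : 0 < n) (hm : m ∣ 2 ^ n - 1)
    (hmn : 2 ^ n - 1 ∣ m * n) (ha : a < n) (hb : b < n) (hc : c < n)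
    (h : 2 ^ a + 2 ^ b ≡ 2 ^ c [MOD m]) : a = b := by
  by_cases h7 : n < 7
  · obtain ⟨d, hdn, hd2, hlt, hmd⟩ := exists_cofactor hn hm hmn
    exact small_mul n h7 d hlt hdn hd2 a ha b hb c hc (by rw [hmd]; exact h)
  have hpow : 2 ^ n ≡ 1 [MOD m] := ((Nat.modEq_iff_dvd' Nat.one_le_two_pow).2 hm).symm
  obtain ⟨c', hc', hcc⟩ : ∃ c', c' < n ∧ 2 ^ c' + 2 ^ c' ≡ 2 ^ c [MOD m] := by
    rcases c with _ | c
    · refine ⟨n - 1, by omega, ?_⟩
      rw [← two_mul, ← pow_succ', Nat.sub_add_cancel hn]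
      simpa using hpow
    · exact ⟨c, by omega, by rw [← two_mul, ← pow_succ']⟩
  rcases pair_of_modEq (by omega) hm hmn ha hb hc' hc' (h.trans hcc.symm) with ⟨h1, h2⟩ | ⟨h1, h2⟩ <;>
    exact h1.trans h2.symm

/-- `2 ^ p + 2 ^ t ≡ 1 + 2 ^ (p + u)` forces `t = u`. -/
theorem eq_of_modEq_ratio {n m p t u : ℕ} (hn : 0 < n) (hm : m ∣ 2 ^ n - 1)
    (hmn : 2 ^ n - 1 ∣ m * n) (hp : p < n) (ht : t < n) (hu : u < n)
    (h : 2 ^ p + 2 ^ t ≡ 1 + 2 ^ ((p + u) % n) [MOD m]) : t = u := by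
  by_cases h7 : n < 7
  · obtain ⟨d, hdn, hd2, hlt, hmd⟩ := exists_cofactor hn hm hmn
    exact small_ratio n h7 d hlt hdn hd2 p hp t ht u hu (by rw [hmd]; exact h)
  rcases pair_of_modEq (by omega) hm hmn hp ht hn (Nat.mod_lt (p + u) hn)
    (by rw [pow_zero]; exact h) with ⟨h1, h2⟩ | ⟨h1, h2⟩
  · rw [h2, h1, Nat.zero_add, Nat.mod_eq_of_lt hu]
  · rw [h2]
    by_cases hlt : p + u < n
    · rw [Nat.mod_eq_of_lt hlt] at h1; omega
    · rw [Nat.mod_eq_sub_mod (by omega), Nat.mod_eq_of_lt (by omega)] at h1; omega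

end Cfsg.Agent.Suzuki2S
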